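import Cfsg.Agent.H4.RankTwo
import Cfsg.Agent.H4.Height0

/-!
# Bounds from major subsections (owner: helper4)
-/

set_option autoImplicit false
set_option linter.style.haveILetI false
set_option linter.unusedSectionVars false

namespace Cfsg.Agent.H4

open scoped ComplexConjugate BigOperators
open Cfsg Cfsg.Agent.CharBase Cfsg.Agent.Blk Cfsg.Agent.BlkInd Cfsg.Agent.BlkC

universe u

section cyc

variable {p : ℕ} [hp : Fact p.Prime] {j : ℕ} {M : Ideal AlgInt}

/-- weighted counting with integral multiples -/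
theorem wcount2 (hM : IsPModular p M) {κ : Type*} (S : Finset κ) (d : κ → ℂ) (w : κ → ℤ)
    (hw : ∀ x ∈ S, ∃ (a : ℤ) (v : ℂ), d x = a * v ∧ v ∈ cycRing (p ^ (j + 1)) ∧
      (w x ≤ 0 ∨ (v ≠ 0 ∧ w x ≤ a * a)))
    {c : ℤ} (hc : ∑ x ∈ S, d x * conj (d x) = c) : ∑ x ∈ S, w x ≤ c := by
  classical
  have h5 : (0 : ℤ) < 2 * ((p : ℤ) - 1) := by
    have := hp.out.two_le
    omega
  have h1 : ∀ x, ∃ m : ℤ, x ∈ S → 2 * Tr (p ^ (j + 1)) (d x * conj (d x)) =
      (p : ℂ) ^ j * (m : ℂ) ∧ w x * (2 * ((p : ℤ) - 1)) ≤ m := by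
    intro x
    by_cases hx : x ∈ S
    · obtain ⟨a, v, hd, hv, hw'⟩ := hw x hx
      obtain ⟨m, hm, hm0, hm1, -⟩ := exists_sq_ge hM hv
      refine ⟨a * a * m, fun _ => ⟨?_, ?_⟩⟩
      · have h2 : d x * conj (d x) = ((a * a : ℤ) : ℂ) * (v * conj v) := by
          rw [hd, map_mul, map_intCast]; push_cast; ring
        rw [h2, Tr_int_mul, mul_left_comm, hm]; push_cast; ring
      · have haa : 0 ≤ a * a := mul_self_nonneg a
        rcases hw' with h | ⟨h, h'⟩
        · have h6 : 0 ≤ a * a * m := mul_nonneg haa hm0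
          nlinarith
        · have h6 := hm1 h
          calc w x * (2 * ((p : ℤ) - 1)) ≤ (a * a) * (2 * ((p : ℤ) - 1)) :=
                mul_le_mul_of_nonneg_right h' h5.le
            _ ≤ a * a * m := mul_le_mul_of_nonneg_left h6 haa
    · exact ⟨0, fun h => absurd h hx⟩
  choose m hm using h1
  have h2 : 2 * ((p : ℂ) ^ j * ((p : ℂ) - 1) * c) = (p : ℂ) ^ j * ((∑ x ∈ S, m x : ℤ) : ℂ) := by
    rw [← Tr_int (p := p) (j := j) c, ← hc, Tr_sum, Finset.mul_sum]
    push_cast
    rw [Finset.mul_sum]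
    exact Finset.sum_congr rfl fun x hx => (hm x hx).1
  have hp0 : (p : ℂ) ^ j ≠ 0 := pow_ne_zero _ (by exact_mod_cast hp.out.ne_zero)
  have h3 : 2 * (((p : ℤ) - 1) * c) = ∑ x ∈ S, m x := by
    have h4 : (p : ℂ) ^ j * (2 * (((p : ℂ) - 1) * c)) =
        (p : ℂ) ^ j * ((∑ x ∈ S, m x : ℤ) : ℂ) := by rw [← h2]; ring
    have h5 := mul_left_cancel₀ hp0 h4
    exact_mod_cast h5
  have h4 : (∑ x ∈ S, w x) * (2 * ((p : ℤ) - 1)) ≤ ∑ x ∈ S, m x := by
    rw [Finset.sum_mul]
    exact Finset.sum_le_sum fun x hx => (hm x hx).2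
  rw [← h3] at h4
  have h6 : (∑ x ∈ S, w x) * (2 * ((p : ℤ) - 1)) ≤ c * (2 * ((p : ℤ) - 1)) := by linarith
  exact le_of_mul_le_mul_right h6 h5

end cyc

variable {G : Type u} [Group G] [Fintype G] {p : ℕ} [hp : Fact p.Prime] {M : Ideal AlgInt}
variable {C : Subgroup G} [Fintype C] {B : Set (IrrCharacter G)}

/-- **`k(B) ≤ p^d l(b)`** for a major subsection -/
theorem card_le_mul_rank (hM : IsPModular p M) (hB : IsPBlock M B) {x : G}
    (hx : ∃ k : ℕ, orderOf x = p ^ k)
    (hC : C = Subgroup.centralizer ({x} : Set G)) {e : Set (IrrCharacter C)}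
    (hind : IsInducedBlock M C e B) (hd : blockDefect p e = blockDefect p B) :
    Nat.card B ≤ p ^ blockDefect p B * blockRank p e := by
  classical
  haveI := isPrime_of_isPModular hM
  obtain ⟨V1, V2, V3⟩ := major_val hM hB hx hC hind hd
  obtain ⟨ψ₀, hψ₀, h₀⟩ := exists_height_zero (p := p) hM hB
  obtain ⟨k, hk⟩ := hx
  obtain ⟨n, d, c, g, r, u, v, hn, hdmem, hcsum, hsc, hgc, hcs, hgs, hu, hv, huv⟩ :=
    exists_secBasis hM (j := k) ⟨k, Nat.le_succ k, hk⟩ hC hind
  set P : ℤ := (p : ℤ) ^ blockDefect p e with hP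
  have hPpos : 0 < P := pow_pos (by exact_mod_cast hp.out.pos) _
  -- `c` is positive semidefinite
  have hcpsd : ∀ y : Fin n → ℤ, ∑ χ ∈ Bfin B, (∑ i, (y i : ℂ) * d χ i) *
      conj (∑ i, (y i : ℂ) * d χ i) = ((∑ i, ∑ k, c i k * (y i * y k) : ℤ) : ℂ) := by
    intro y
    have h1 : ∀ χ ∈ Bfin B, (∑ i, (y i : ℂ) * d χ i) * conj (∑ i, (y i : ℂ) * d χ i) =
        ∑ i, ∑ k, (y i : ℂ) * (y k : ℂ) * (d χ i * conj (d χ k)) := by
      intro χ _
      rw [map_sum, Finset.sum_mul_sum]
      refine Finset.sum_congr rfl fun i _ => Finset.sum_congr rfl fun k _ => ?_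
      rw [map_mul, map_intCast]; ring
    rw [Finset.sum_congr rfl h1, ← sum3_comm]
    push_cast
    refine Finset.sum_congr rfl fun i _ => Finset.sum_congr rfl fun k _ => ?_
    rw [← Finset.mul_sum, hcsum]; ring
  have hcg : ∀ i k, ∑ l, c i l * g l k = if i = k then P else 0 := by
    intro i k
    have h1 := hgc k i
    rw [show (∑ l, c i l * g l k) = ∑ l, g k l * c l i from
      Finset.sum_congr rfl fun l _ => by rw [hcs i l, hgs l k]; ring, h1]
    by_cases h : i = k
    · rw [if_pos h, if_pos h.symm]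
    · rw [if_neg h, if_neg (fun h' => h h'.symm)]
  -- `g` is positive definite
  have hgpos : ∀ y : Fin n → ℤ, y ≠ 0 → 1 ≤ qf g y := by
    intro y hy
    set z : Fin n → ℤ := fun i => ∑ k, g i k * y k with hz
    have hczy : ∀ i, ∑ k, c i k * z k = P * y i := by
      intro i
      simp only [hz, Finset.mul_sum]
      rw [Finset.sum_comm]
      have h1 : ∀ l, ∑ k, c i k * (g k l * y l) = (if i = l then P else 0) * y l := by
        intro l
        rw [← hcg i l, Finset.sum_mul]
        exact Finset.sum_congr rfl fun k _ => by ring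
      rw [Finset.sum_congr rfl fun l _ => h1 l]
      simp
    have h1 : ∑ i, ∑ k, c i k * (z i * z k) = P * qf g y := by
      have h2 : ∑ i, ∑ k, c i k * (z i * z k) = ∑ i, z i * (P * y i) := by
        refine Finset.sum_congr rfl fun i _ => ?_
        rw [← hczy i, Finset.mul_sum]
        exact Finset.sum_congr rfl fun k _ => by ring
      rw [h2]
      unfold qf
      rw [Finset.mul_sum]
      refine Finset.sum_congr rfl fun i _ => ?_
      simp only [hz]
      rw [Finset.sum_mul, Finset.mul_sum]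
      exact Finset.sum_congr rfl fun k _ => by ring
    have h2 := hcpsd z
    rw [h1] at h2
    have h3 : 0 ≤ P * qf g y := Dat2.sq_sum_nonneg h2
    have h4 : 0 ≤ qf g y := nonneg_of_mul_nonneg_right h3 hPpos
    rcases h4.lt_or_eq with h5 | h5
    · omega
    · exfalso
      rw [← h5, mul_zero] at h2
      have h6 := Dat2.sq_sum_eq_zero h2
      apply hy
      funext i
      have h7 : ((P * y i : ℤ) : ℂ) = 0 := by
        rw [← hczy i]
        push_cast
        have h8 : ∀ k, (c i k : ℂ) * (z k : ℂ) = ∑ χ ∈ Bfin B, d χ i * conj ((z k : ℂ) * d χ k) := by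
          intro k
          rw [← hcsum i k, Finset.sum_mul]
          refine Finset.sum_congr rfl fun χ _ => ?_
          rw [map_mul, map_intCast]; ring
        rw [Finset.sum_congr rfl fun k _ => h8 k, Finset.sum_comm]
        refine Finset.sum_eq_zero fun χ hχ => ?_
        rw [← Finset.mul_sum, ← map_sum, h6 χ hχ, map_zero, mul_zero]
      have h8 : P * y i = 0 := by exact_mod_cast h7
      rcases mul_eq_zero.mp h8 with h9 | h9
      · omega
      · exact h9
  have hle := card_le_form (p := p) (j := k) hgpos (Bfin B) d (fun χ _ i => hdmem χ i)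
    (fun χ hχ h => by
      apply V1 χ (mem_Bfin.mp hχ) ψ₀ hψ₀ h₀
      rw [hsc, h]; simp)
    (c := P * n) (by
      rw [← sum3_comm]
      have h1 : ∀ i k, ∑ χ ∈ Bfin B, (g i k : ℂ) * (d χ i * conj (d χ k)) =
          ((g i k * c k i : ℤ) : ℂ) := by
        intro i k
        rw [← Finset.mul_sum, hcsum, hcs i k]; push_cast; rfl
      simp only [h1]
      have h2 : ∑ i, ∑ k, ((g i k * c k i : ℤ) : ℂ) = ((∑ i, ∑ k, g i k * c k i : ℤ) : ℂ) := by
        push_cast; rfl
      rw [h2]
      have h3 : ∑ i, ∑ k, g i k * c k i = P * n := by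
        rw [Finset.sum_congr rfl fun i _ => by rw [hgc i i, if_pos rfl], Finset.sum_const,
          Finset.card_univ, Fintype.card_fin, nsmul_eq_mul, mul_comm]
      rw [h3])
  rw [natCard_eq_Bfin, ← hd, ← hn]
  rw [hP] at hle
  exact_mod_cast hle

/-- the number of height zero / positive height characters and the rank of a major subsection -/
theorem pairs_bound (hM : IsPModular p M) (hB : IsPBlock M B) {x : G}
    (hx : ∃ k : ℕ, orderOf x = p ^ k)
    (hC : C = Subgroup.centralizer ({x} : Set G)) {e : Set (IrrCharacter C)}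
    (hind : IsInducedBlock M C e B) (hd : blockDefect p e = blockDefect p B) :
    (B0 p B).card * (B0 p B).card + 2 * p ^ 2 * (B0 p B).card *
      ((Bfin B).card - (B0 p B).card) ≤ p ^ (2 * blockDefect p B) * blockRank p e := by
  classical
  haveI := isPrime_of_isPModular hM
  obtain ⟨k, hk⟩ := hx
  have hx' : ∃ k : ℕ, orderOf x = p ^ k := ⟨k, hk⟩
  obtain ⟨w, hw1, hw2, hw3⟩ := exists_val hM hB (j := k) ⟨k, Nat.le_succ k, hk⟩ hC hind hd
  have hdiv : orderOf x ∣ p ^ (k + 1) := by rw [hk]; exact pow_dvd_pow _ (Nat.le_succ k)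
  have hp0 : (p : ℂ) ≠ 0 := by exact_mod_cast hp.out.ne_zero
  set q := blockDefect p B with hq
  set mm : IrrCharacter G → IrrCharacter G → ℂ := fun χ ψ =>
    (p : ℂ) ^ q * sc p x e (χ : G → ℂ) (ψ : G → ℂ) with hmm
  have hmmem : ∀ χ ψ, mm χ ψ ∈ cycRing (p ^ (k + 1)) := by
    intro χ ψ
    have := sc_mul_mem (p := p) hdiv hC e χ ψ
    rw [hd] at this
    exact this
  set W : IrrCharacter G × IrrCharacter G → ℤ := fun s =>
    if blockHeight p B (s.2 : G → ℂ) = 0 then
      (if blockHeight p B (s.1 : G → ℂ) = 0 then 1 else (p : ℤ) ^ 2)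
    else (if blockHeight p B (s.1 : G → ℂ) = 0 then (p : ℤ) ^ 2 else 0) with hW
  have hple : ∀ h : ℕ, h ≠ 0 → (p : ℤ) ^ 2 ≤ (p : ℤ) ^ h * (p : ℤ) ^ h := by
    intro h hh
    rw [← pow_add]
    exact pow_le_pow_right₀ (by exact_mod_cast hp.out.one_lt.le) (by omega)
  have h1 := wcount2 hM (j := k) (Bfin B ×ˢ Bfin B) (fun s => mm s.1 s.2) W
    (fun s hs => by
      rw [Finset.mem_product] at hs
      have hs1 := mem_Bfin.mp hs.1
      have hs2 := mem_Bfin.mp hs.2
      by_cases h2 : blockHeight p B (s.2 : G → ℂ) = 0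
      · refine ⟨(p : ℤ) ^ blockHeight p B (s.1 : G → ℂ), w s.1 s.2, ?_, hw2 _ hs1 _, Or.inr ⟨?_, ?_⟩⟩
        · push_cast; exact hw1 _ hs1 _
        · intro h0
          exact (hw3 _ hs1 _ hs2).mp (by rw [h0]; exact mli_zero) h2
        · simp only [hW]
          rw [if_pos h2]
          by_cases h3 : blockHeight p B (s.1 : G → ℂ) = 0
          · rw [if_pos h3, h3, pow_zero, mul_one]
          · rw [if_neg h3]; exact hple _ h3
      · by_cases h3 : blockHeight p B (s.1 : G → ℂ) = 0
        · refine ⟨(p : ℤ) ^ blockHeight p B (s.2 : G → ℂ), conj (w s.2 s.1), ?_,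
            cycRing_conj_mem (hw2 _ hs2 _), Or.inr ⟨?_, ?_⟩⟩
          · have h4 : mm s.1 s.2 = conj (mm s.2 s.1) := by
              simp only [hmm]
              rw [map_mul, map_pow, Complex.conj_natCast, sc_conj]
            change mm s.1 s.2 = _
            rw [h4]
            simp only [hmm]
            rw [hw1 _ hs2 s.1]
            push_cast
            rw [map_mul, map_pow, Complex.conj_natCast]
          · intro h0
            rw [map_eq_zero] at h0
            exact (hw3 _ hs2 _ hs1).mp (by rw [h0]; exact mli_zero) h3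
          · simp only [hW]
            rw [if_neg h2, if_pos h3]; exact hple _ h2
        · refine ⟨1, mm s.1 s.2, by push_cast; rw [one_mul], hmmem _ _, Or.inl ?_⟩
          simp only [hW]
          rw [if_neg h2, if_neg h3])
    (c := ((p ^ (2 * q) * blockRank p e : ℕ) : ℤ)) (by
      have h2 := sum_sum_sc hM hx' hC hind
      push_cast
      rw [← h2, Finset.mul_sum]
      refine Finset.sum_congr rfl fun i _ => ?_
      simp only [hmm]
      rw [map_mul, map_pow, Complex.conj_natCast, two_mul, pow_add]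
      ring)
  have hB0 : (B0 p B).card ≤ (Bfin B).card := Finset.card_le_card (Finset.filter_subset _ _)
  have hsumite : ∀ a b : ℤ, ∑ χ ∈ Bfin B, (if blockHeight p B (χ : G → ℂ) = 0 then a else b) =
      ((B0 p B).card : ℤ) * a + (((Bfin B).card : ℤ) - (B0 p B).card) * b := by
    intro a b
    rw [Finset.sum_ite, Finset.sum_const, Finset.sum_const, nsmul_eq_mul, nsmul_eq_mul]
    have h2 : ((Bfin B).filter fun χ : IrrCharacter G => blockHeight p B (χ : G → ℂ) = 0).card =
        (B0 p B).card := by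
      unfold B0; congr
    have h3 := Finset.card_filter_add_card_filter_not (s := Bfin B)
      (fun χ : IrrCharacter G => blockHeight p B (χ : G → ℂ) = 0)
    rw [h2] at h3
    rw [h2]
    congr 2
    omega
  rw [Finset.sum_product] at h1
  have h4 : ∀ χ ∈ Bfin B, ∑ ψ ∈ Bfin B, W (χ, ψ) = if blockHeight p B (χ : G → ℂ) = 0 then
      ((B0 p B).card : ℤ) * 1 + (((Bfin B).card : ℤ) - (B0 p B).card) * (p : ℤ) ^ 2 else
      ((B0 p B).card : ℤ) * (p : ℤ) ^ 2 + (((Bfin B).card : ℤ) - (B0 p B).card) * 0 := by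
    intro χ _
    simp only [hW]
    by_cases h : blockHeight p B (χ : G → ℂ) = 0
    · simp only [if_pos h]; exact hsumite _ _
    · simp only [if_neg h]; exact hsumite _ _
  rw [Finset.sum_congr rfl h4, hsumite] at h1
  zify [hB0]
  push_cast at h1
  linarith

end Cfsg.Agent.H4
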