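import Cfsg.Agent.H4.CycBound
import Cfsg.Agent.H4.MajorBound

/-!
# Bounds for `k(B)` by induction over central quotients (owner: helper4)
-/

set_option autoImplicit false
set_option linter.style.haveILetI false
set_option linter.unusedSectionVars false

namespace Cfsg.Agent.H4

open scoped ComplexConjugate BigOperators Pointwise
open Cfsg Cfsg.Agent.CharBase Cfsg.Agent.Blk Cfsg.Agent.BlkInd Cfsg.Agent.BlkC

universe u

section setup

variable {G : Type u} [Group G]

/-- the element `z` inside its centralizer -/
def zc (z : G) : Subgroup.centralizer ({z} : Set G) :=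
  ⟨z, by rw [Subgroup.mem_centralizer_singleton_iff]⟩

theorem zpowers_zc_le (z : G) :
    Subgroup.zpowers (zc z) ≤ Subgroup.center (Subgroup.centralizer ({z} : Set G)) := by
  rw [Subgroup.zpowers_le, Subgroup.mem_center_iff]
  intro g
  apply Subtype.ext
  exact Subgroup.mem_centralizer_singleton_iff.mp g.2

instance (z : G) : (Subgroup.zpowers (zc z)).Normal := by
  refine ⟨fun n hn g => ?_⟩
  have h := Subgroup.mem_center_iff.mp (zpowers_zc_le z hn) g
  rw [h, mul_inv_cancel_right]
  exact hn

theorem isPGroup_zc {p : ℕ} [Fact p.Prime] {z : G} (hz : ∃ k : ℕ, orderOf z = p ^ k) :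
    IsPGroup p (Subgroup.zpowers (zc z)) := by
  obtain ⟨k, hk⟩ := hz
  apply IsPGroup.of_card (n := k)
  rw [Nat.card_zpowers, ← hk, ← Subgroup.orderOf_coe]
  rfl

/-- the natural map from `D` to the central quotient -/
def quotMap {D : Subgroup G} {z : G} (hDC : D ≤ Subgroup.centralizer ({z} : Set G)) :
    D →* Subgroup.centralizer ({z} : Set G) ⧸ Subgroup.zpowers (zc z) :=
  (QuotientGroup.mk' (Subgroup.zpowers (zc z))).comp (Subgroup.inclusion hDC)

theorem quotMap_range {D : Subgroup G} {z : G} (hDC : D ≤ Subgroup.centralizer ({z} : Set G)) :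
    (quotMap hDC).range = (D.subgroupOf (Subgroup.centralizer ({z} : Set G))).map
      (QuotientGroup.mk' (Subgroup.zpowers (zc z))) := by
  unfold quotMap
  rw [MonoidHom.range_comp, Subgroup.inclusion_range]

theorem quotMap_self {D : Subgroup G} {z : G} (hDC : D ≤ Subgroup.centralizer ({z} : Set G))
    (hz : z ∈ D) : quotMap hDC ⟨z, hz⟩ = 1 := by
  change (QuotientGroup.mk (zc z) : _ ⧸ Subgroup.zpowers (zc z)) = 1
  exact (QuotientGroup.eq_one_iff _).mpr (Subgroup.mem_zpowers _)

theorem quotMap_ker {D : Subgroup G} {z : G} (hDC : D ≤ Subgroup.centralizer ({z} : Set G))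
    (hz : z ∈ D) : (quotMap hDC).ker = Subgroup.zpowers (⟨z, hz⟩ : D) := by
  ext d
  rw [MonoidHom.mem_ker]
  constructor
  · intro h
    have h1 : (QuotientGroup.mk (Subgroup.inclusion hDC d) : _ ⧸ Subgroup.zpowers (zc z)) = 1 := h
    rw [QuotientGroup.eq_one_iff] at h1
    obtain ⟨n, hn⟩ := Subgroup.mem_zpowers_iff.mp h1
    refine Subgroup.mem_zpowers_iff.mpr ⟨n, ?_⟩
    apply Subtype.ext
    have h2 := congrArg Subtype.val hn
    simpa [zc] using h2
  · intro h
    obtain ⟨n, hn⟩ := Subgroup.mem_zpowers_iff.mp h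
    rw [← hn, map_zpow, quotMap_self hDC hz, one_zpow]

theorem card_quotMap [Finite G] {D : Subgroup G} {z : G}
    (hDC : D ≤ Subgroup.centralizer ({z} : Set G)) (hz : z ∈ D) :
    Nat.card D = orderOf z * Nat.card (quotMap hDC).range := by
  have h1 := Subgroup.card_mul_index (quotMap hDC).ker
  rw [Subgroup.index_ker, quotMap_ker hDC hz, Nat.card_zpowers] at h1
  rw [← h1]
  congr 1
  rw [← Subgroup.orderOf_coe]

end setup

variable {G : Type u} [Group G] [Fintype G] {p : ℕ} [hp : Fact p.Prime] {M : Ideal AlgInt}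
variable {B : Set (IrrCharacter G)}

theorem exists_setup (hM : IsPModular p M) (hB : IsPBlock M B) {D : Subgroup G}
    (hD : IsDefectGroup p M B D) {z : G} (hzD : z ∈ D)
    (hDC : D ≤ Subgroup.centralizer ({z} : Set G)) :
    ∃ b : Set (IrrCharacter (Subgroup.centralizer ({z} : Set G))),
      IsInducedBlock M (Subgroup.centralizer ({z} : Set G)) b B ∧
      IsDefectGroup p M b (D.subgroupOf (Subgroup.centralizer ({z} : Set G))) ∧
      (∃ k : ℕ, orderOf z = p ^ k) ∧ blockDefect p b = blockDefect p B := by
  haveI := isPrime_of_isPModular hM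
  have hzc : ∀ d ∈ D, d * z = z * d := fun d hd =>
    Subgroup.mem_centralizer_singleton_iff.mp (hDC hd)
  obtain ⟨b, hb, hbD⟩ := exists_major hM hB hD hzD hzc
  obtain ⟨h1, h2⟩ := major_of_defect hM hB hD hzD hzc hb.1 hbD
  exact ⟨b, hb, hbD, h1, h2⟩

theorem le_centralizer_of_mem {D : Subgroup G} (hab : ∀ x ∈ D, ∀ y ∈ D, x * y = y * x) {z : G}
    (hz : z ∈ D) : D ≤ Subgroup.centralizer ({z} : Set G) := by
  intro d hd
  rw [Subgroup.mem_centralizer_singleton_iff]
  exact hab d hd z hz

/-- **two-generator abelian defect groups**: `k(B) ≤ p^d` -/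
theorem card_le_of_two_gen (hM : IsPModular p M) (hB : IsPBlock M B) {D : Subgroup G}
    (hD : IsDefectGroup p M B D) (hab : ∀ x ∈ D, ∀ y ∈ D, x * y = y * x) {z w : D}
    (hgen : Subgroup.closure ({z, w} : Set D) = ⊤) : Nat.card B ≤ p ^ blockDefect p B := by
  classical
  have hDC := le_centralizer_of_mem hab z.2
  obtain ⟨b, hind, hbD, hz, hd⟩ := exists_setup hM hB hD z.2 hDC
  haveI := Fintype.ofFinite (Subgroup.centralizer ({(z : G)} : Set G))
  refine card_le_of_cyclic_quot hM hB hz rfl hind hd (isPGroup_zc hz) (zpowers_zc_le _) hbD ?_ ?_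
  · rw [Subgroup.zpowers_le]
    exact z.2
  · rw [← quotMap_range hDC, Subgroup.isCyclic_iff_exists_zpowers_eq_top]
    refine ⟨quotMap hDC w, ?_⟩
    rw [MonoidHom.range_eq_map, ← hgen, MonoidHom.map_closure, Set.image_pair,
      show quotMap hDC z = 1 from quotMap_self hDC z.2, Subgroup.closure_insert_one,
      ← Subgroup.zpowers_eq_closure]

/-- **three-generator abelian defect groups** -/
theorem card_cube_le (hM : IsPModular p M) (hB : IsPBlock M B) {D : Subgroup G}
    (hD : IsDefectGroup p M B D) (hab : ∀ x ∈ D, ∀ y ∈ D, x * y = y * x) {z w v : D}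
    (hgen : Subgroup.closure ({z, w, v} : Set D) = ⊤) (hw : orderOf w ≤ orderOf z)
    (hv : orderOf v ≤ orderOf z) : Nat.card B ^ 3 ≤ p ^ (5 * blockDefect p B) := by
  classical
  haveI := isPrime_of_isPModular hM
  have hDC := le_centralizer_of_mem hab z.2
  obtain ⟨b, hind, hbD, hz, hd⟩ := exists_setup hM hB hD z.2 hDC
  haveI := Fintype.ofFinite (Subgroup.centralizer ({(z : G)} : Set G))
  haveI := Fintype.ofFinite
    (Subgroup.centralizer ({(z : G)} : Set G) ⧸ Subgroup.zpowers (zc (z : G)))
  have hQp : IsPGroup p (Subgroup.zpowers (zc (z : G))) := isPGroup_zc hz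
  have hQc : Subgroup.zpowers (zc (z : G)) ≤
      Subgroup.center (Subgroup.centralizer ({(z : G)} : Set G)) := zpowers_zc_le _
  have hDp := isPGroup_of_isDefectGroup hD
  set f := quotMap hDC with hf
  have hdom := isPBlock_dom hM hQp hQc hind.1
  have hdef := defect_dom hM hQp hQc hind.1 hbD
  rw [← quotMap_range hDC] at hdef
  have habf : ∀ x ∈ f.range, ∀ y ∈ f.range, x * y = y * x := by
    rintro _ ⟨x, rfl⟩ _ ⟨y, rfl⟩
    rw [← map_mul, ← map_mul]
    congr 1
    exact Subtype.ext (hab _ x.2 _ y.2)
  have hgenf : Subgroup.closure ({f.rangeRestrict w, f.rangeRestrict v} : Set f.range) = ⊤ := by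
    have h1 : (⊤ : Subgroup D).map f.rangeRestrict = ⊤ :=
      Subgroup.map_top_of_surjective _ f.rangeRestrict_surjective
    rw [← hgen, MonoidHom.map_closure, Set.image_insert_eq, Set.image_pair] at h1
    have h2 : f.rangeRestrict z = 1 := Subtype.ext (quotMap_self hDC z.2)
    rw [h2, Subgroup.closure_insert_one] at h1
    exact h1
  have hk := card_le_of_two_gen hM hdom hdef habf hgenf
  rw [← card_defectGroup hM hdom hdef] at hk
  have hl := rank_le_card_dom hM hQp hQc hind.1
  have hB1 := card_le_mul_rank hM hB hz rfl hind hd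
  have hcD : Nat.card D = p ^ blockDefect p B := card_defectGroup hM hB hD
  have hcard := card_quotMap hDC z.2
  -- the size of the quotient
  have hsize : Nat.card f.range ≤ orderOf (z : G) * orderOf (z : G) := by
    haveI hn : ∀ K : Subgroup f.range, K.Normal := fun K => ⟨fun n hn g => by
      have h1 : g * n = n * g := Subtype.ext (habf _ g.2 _ n.2)
      rw [h1, mul_inv_cancel_right]; exact hn⟩
    set a := f.rangeRestrict w with ha
    set c := f.rangeRestrict v with hc
    have h1 : Subgroup.zpowers a ⊔ Subgroup.zpowers c = ⊤ := by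
      rw [← hgenf, Subgroup.zpowers_eq_closure a, Subgroup.zpowers_eq_closure c,
        ← Subgroup.closure_union, Set.insert_eq]
    have h2 : ((⊤ : Subgroup f.range) : Set f.range) = (Subgroup.zpowers a : Set f.range) *
        (Subgroup.zpowers c : Set f.range) := by
      rw [← h1]
      haveI := hn (Subgroup.zpowers c)
      exact Subgroup.mul_normal _ _
    have h3 := Set.natCard_mul_le (s := (Subgroup.zpowers a : Set f.range))
      (t := (Subgroup.zpowers c : Set f.range))
    rw [← h2] at h3
    have h4 : Nat.card ((⊤ : Subgroup f.range) : Set f.range) = Nat.card f.range :=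
      Subgroup.card_top
    have h5 : Nat.card ((Subgroup.zpowers a : Set f.range)) = orderOf a := Nat.card_zpowers a
    have h6 : Nat.card ((Subgroup.zpowers c : Set f.range)) = orderOf c := Nat.card_zpowers c
    rw [h4, h5, h6] at h3
    have h7 : orderOf a ≤ orderOf (z : G) := by
      rw [Subgroup.orderOf_coe]
      exact (Nat.le_of_dvd (orderOf_pos w) (orderOf_map_dvd f.rangeRestrict w)).trans hw
    have h8 : orderOf c ≤ orderOf (z : G) := by
      rw [Subgroup.orderOf_coe]
      exact (Nat.le_of_dvd (orderOf_pos v) (orderOf_map_dvd f.rangeRestrict v)).trans hv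
    exact h3.trans (Nat.mul_le_mul h7 h8)
  -- arithmetic
  set N := Nat.card f.range with hN
  set o := orderOf (z : G) with ho
  have hl' : blockRank p b ≤ N := hl.trans hk
  have h1 : Nat.card B ≤ (o * N) * N := by
    rw [← hcard, hcD]
    exact hB1.trans (Nat.mul_le_mul_left _ hl')
  have h2 : p ^ (5 * blockDefect p B) = (o * N) ^ 5 := by
    rw [← hcard, hcD, ← pow_mul, mul_comm]
  rw [h2]
  calc Nat.card B ^ 3 ≤ ((o * N) * N) ^ 3 := Nat.pow_le_pow_left h1 3
    _ = (o ^ 3 * N ^ 5) * N := by ring
    _ ≤ (o ^ 3 * N ^ 5) * (o * o) := Nat.mul_le_mul_left _ hsize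
    _ = (o * N) ^ 5 := by ring

/-- defect at most two -/
theorem card_le_of_defect_le_two (hM : IsPModular p M) (hB : IsPBlock M B)
    (hd : blockDefect p B ≤ 2) : Nat.card B ≤ p ^ blockDefect p B := by
  classical
  haveI := isPrime_of_isPModular hM
  obtain ⟨D, hD⟩ := exists_defectGroup hM hB
  have hcD : Nat.card D = p ^ blockDefect p B := card_defectGroup hM hB hD
  have hpp := hp.out
  -- commutativity and generators
  have key : (∀ x y : D, x * y = y * x) ∧ ∃ z w : D, Subgroup.closure ({z, w} : Set D) = ⊤ := by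
    rcases (show blockDefect p B = 0 ∨ blockDefect p B = 1 ∨ blockDefect p B = 2 by omega)
      with h | h | h
    · rw [h, pow_zero] at hcD
      haveI : Subsingleton D := (Nat.card_eq_one_iff_unique.mp hcD).1
      refine ⟨fun x y => Subsingleton.elim _ _, 1, 1, ?_⟩
      exact Subsingleton.elim _ _
    · rw [h, pow_one] at hcD
      haveI : IsCyclic D := isCyclic_of_prime_card hcD
      obtain ⟨g, hg⟩ := IsCyclic.exists_generator (α := D)
      refine ⟨fun x y => ?_, g, 1, ?_⟩
      · letI := IsCyclic.commGroup (α := D)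
        exact mul_comm x y
      · rw [eq_top_iff]
        intro x _
        have h1 : Subgroup.zpowers g ≤ Subgroup.closure ({g, 1} : Set D) := by
          rw [Subgroup.zpowers_le]
          exact Subgroup.subset_closure (Set.mem_insert _ _)
        exact h1 (hg x)
    · rw [h] at hcD
      refine ⟨fun x y => ?_, ?_⟩
      · letI := IsPGroup.commGroupOfCardEqPrimeSq hcD
        exact mul_comm x y
      · haveI : Nontrivial D := by
          rw [← Finite.one_lt_card_iff_nontrivial, hcD]
          exact Nat.one_lt_pow (by norm_num) hpp.one_lt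
        obtain ⟨z, hz⟩ := exists_ne (1 : D)
        by_cases hzt : Subgroup.zpowers z = ⊤
        · refine ⟨z, 1, ?_⟩
          rw [eq_top_iff, ← hzt, Subgroup.zpowers_le]
          exact Subgroup.subset_closure (Set.mem_insert _ _)
        · obtain ⟨w, hw⟩ : ∃ w : D, w ∉ Subgroup.zpowers z := by
            by_contra hcon
            push Not at hcon
            exact hzt (eq_top_iff.mpr fun w _ => hcon w)
          refine ⟨z, w, ?_⟩
          set K := Subgroup.closure ({z, w} : Set D) with hK
          have hzK : Subgroup.zpowers z < K := by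
            refine lt_of_le_of_ne ?_ ?_
            · rw [Subgroup.zpowers_le]
              exact Subgroup.subset_closure (Set.mem_insert _ _)
            · intro h'
              apply hw
              rw [h']
              exact Subgroup.subset_closure (Set.mem_insert_of_mem _ rfl)
          have h1 : Nat.card K ∣ p ^ 2 := by rw [← hcD]; exact Subgroup.card_subgroup_dvd_card K
          obtain ⟨i, hi, hi'⟩ := (Nat.dvd_prime_pow hpp).mp h1
          have h2 : Nat.card (Subgroup.zpowers z) ∣ p ^ 2 := by
            rw [← hcD]; exact Subgroup.card_subgroup_dvd_card _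
          obtain ⟨j, hj, hj'⟩ := (Nat.dvd_prime_pow hpp).mp h2
          have hj1 : 1 ≤ j := by
            rcases Nat.eq_zero_or_pos j with h0 | h0
            · exfalso
              rw [h0, pow_zero, Nat.card_zpowers, orderOf_eq_one_iff] at hj'
              exact hz hj'
            · exact h0
          have h3 : Nat.card (Subgroup.zpowers z) < Nat.card K := by
            apply Set.ncard_lt_ncard (SetLike.coe_ssubset_coe.mpr hzK) (Set.toFinite _)
          rw [hi', hj'] at h3
          have h4 : j < i := (Nat.pow_lt_pow_iff_right hpp.one_lt).mp h3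
          have h5 : i = 2 := by omega
          rw [h5, ← hcD] at hi'
          exact Subgroup.eq_top_of_card_eq K hi'
  obtain ⟨hc, z, w, hgen⟩ := key
  exact card_le_of_two_gen hM hB hD
    (fun x hx y hy => congrArg Subtype.val (hc ⟨x, hx⟩ ⟨y, hy⟩)) hgen

end Cfsg.Agent.H4
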