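import Cfsg.Agent.H4.TwoRank

/-!
# Counting rows with Gram matrix `q (1 + m J)` (owner: helper4)
-/

set_option autoImplicit false
set_option linter.style.haveILetI false
set_option linter.unusedSectionVars false

namespace Cfsg.Agent.H4

open scoped ComplexConjugate BigOperators
open Cfsg Cfsg.Agent.CharBase Cfsg.Agent.Blk Cfsg.Agent.BlkInd Cfsg.Agent.BlkC

variable {p : ℕ} [hp : Fact p.Prime] {j : ℕ} {M : Ideal AlgInt}

/-- extension of a vector by zeros on both sides -/
def ext0' {e : ℕ} (v : Fin e → ℂ) (i : ℕ) : ℂ := if h : 1 ≤ i ∧ i ≤ e then v ⟨i - 1, by omega⟩ else 0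

theorem ext0'_zero {e : ℕ} (v : Fin e → ℂ) : ext0' v 0 = 0 := by
  unfold ext0'; rw [dif_neg (by omega)]

theorem ext0'_last {e : ℕ} (v : Fin e → ℂ) : ext0' v (e + 1) = 0 := by
  unfold ext0'; rw [dif_neg (by omega)]

theorem ext0'_succ {e : ℕ} (v : Fin e → ℂ) (i : Fin e) : ext0' v (i + 1) = v i := by
  unfold ext0'; rw [dif_pos (by have := i.2; omega)]
  congr 1

open Classical in
theorem two_le_diffs {e : ℕ} {v : Fin e → ℂ} (hv : v ≠ 0) :
    2 ≤ ((Finset.range (e + 1)).filter fun i => ext0' v (i + 1) - ext0' v i ≠ 0).card := by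
  by_contra hcon
  push Not at hcon
  have hsum : ∑ i ∈ (Finset.range (e + 1)).filter (fun i => ext0' v (i + 1) - ext0' v i ≠ 0),
      (ext0' v (i + 1) - ext0' v i) = 0 := by
    rw [Finset.sum_filter_ne_zero, Finset.sum_range_sub, ext0'_last, ext0'_zero, sub_zero]
  rcases (show ((Finset.range (e + 1)).filter fun i => ext0' v (i + 1) - ext0' v i ≠ 0).card = 0 ∨
    ((Finset.range (e + 1)).filter fun i => ext0' v (i + 1) - ext0' v i ≠ 0).card = 1 by omega)
    with h | h
  · rw [Finset.card_eq_zero, Finset.filter_eq_empty_iff] at h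
    have h1 : ∀ i, i ≤ e + 1 → ext0' v i = 0 := by
      intro i
      induction i with
      | zero => intro _; exact ext0'_zero v
      | succ i ih =>
        intro hi
        have h2 := h (Finset.mem_range.mpr (show i < e + 1 by omega))
        push Not at h2
        rw [sub_eq_zero.mp h2]
        exact ih (by omega)
    apply hv
    funext i
    rw [← ext0'_succ v i, h1 _ (by have := i.2; omega)]; rfl
  · obtain ⟨i, hi⟩ := Finset.card_eq_one.mp h
    rw [hi, Finset.sum_singleton] at hsum
    have h2 : i ∈ (Finset.range (e + 1)).filter fun i => ext0' v (i + 1) - ext0' v i ≠ 0 := by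
      rw [hi]; exact Finset.mem_singleton_self i
    rw [Finset.mem_filter] at h2
    exact h2.2 hsum

theorem chain_count (hM : IsPModular p M) {κ : Type*} (S : Finset κ) {e : ℕ} (he : 1 ≤ e)
    (d : κ → Fin e → ℂ) (hd : ∀ x ∈ S, ∀ i, d x i ∈ cycRing (p ^ (j + 1)))
    (hne : ∀ x ∈ S, d x ≠ 0) (q m : ℤ)
    (hc : ∀ i k, ∑ x ∈ S, d x i * conj (d x k) = ((q * ((if i = k then 1 else 0) + m) : ℤ) : ℂ)) :
    (S.card : ℤ) ≤ q * (e + m) := by
  classical
  set D : κ → ℕ → ℂ := fun x i => ext0' (d x) (i + 1) - ext0' (d x) i with hD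
  set t : ℕ → ℤ := fun i => if i = 0 ∨ i = e then q * (1 + m) else 2 * q with ht
  have hDmem : ∀ x ∈ S, ∀ i, D x i ∈ cycRing (p ^ (j + 1)) := by
    intro x hx i
    have h1 : ∀ i, ext0' (d x) i ∈ cycRing (p ^ (j + 1)) := by
      intro i
      unfold ext0'
      split_ifs with h
      · exact hd x hx _
      · exact Subring.zero_mem _
    exact Subring.sub_mem _ (h1 _) (h1 _)
  have hDsum : ∀ i ∈ Finset.range (e + 1), ∑ x ∈ S, D x i * conj (D x i) = (t i : ℂ) := by
    intro i hi
    rw [Finset.mem_range] at hi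
    by_cases h0 : i = 0
    · subst h0
      have h1 : ∀ x, D x 0 = d x ⟨0, by omega⟩ := by
        intro x
        simp only [hD]
        rw [ext0'_zero, sub_zero, show (0 + 1 : ℕ) = ((⟨0, by omega⟩ : Fin e) : ℕ) + 1 from rfl,
          ext0'_succ]
      simp only [h1, hc, ht, true_or, if_true]
    · by_cases h1 : i = e
      · have h2 : ∀ x, D x e = -d x ⟨e - 1, by omega⟩ := by
          intro x
          simp only [hD]
          rw [ext0'_last, zero_sub]
          congr 1
          have := ext0'_succ (d x) ⟨e - 1, by omega⟩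
          rw [← this]
          congr 1
          simp only
          omega
        rw [h1]
        simp only [h2, map_neg, neg_mul_neg, hc, ht, or_true, if_true]
      · have h2 : ∀ x, D x i = d x ⟨i, by omega⟩ - d x ⟨i - 1, by omega⟩ := by
          intro x
          simp only [hD]
          congr 1
          · exact ext0'_succ (d x) ⟨i, by omega⟩
          · have := ext0'_succ (d x) ⟨i - 1, by omega⟩
            rw [← this]
            congr 1
            simp only
            omega
        have h3 : ∀ x ∈ S, D x i * conj (D x i) = d x ⟨i, by omega⟩ * conj (d x ⟨i, by omega⟩) -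
            d x ⟨i, by omega⟩ * conj (d x ⟨i - 1, by omega⟩) -
            d x ⟨i - 1, by omega⟩ * conj (d x ⟨i, by omega⟩) +
            d x ⟨i - 1, by omega⟩ * conj (d x ⟨i - 1, by omega⟩) := by
          intro x _
          rw [h2, map_sub]; ring
        have h4 : (⟨i, by omega⟩ : Fin e) ≠ ⟨i - 1, by omega⟩ := by
          intro h
          have := congrArg Fin.val h
          simp only at this
          omega
        rw [Finset.sum_congr rfl h3, Finset.sum_add_distrib, Finset.sum_sub_distrib,
          Finset.sum_sub_distrib, hc, hc, hc, hc, if_pos rfl, if_pos rfl, if_neg h4,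
          if_neg h4.symm]
        simp only [ht]
        rw [if_neg (by tauto)]
        push_cast; ring
  have hcnt : ∀ i ∈ Finset.range (e + 1), ∑ x ∈ S, (if D x i ≠ 0 then (1 : ℤ) else 0) ≤ t i := by
    intro i hi
    refine wcount hM (j := j) S (fun x => D x i) _ (fun x hx => hDmem x hx i) (fun x _ => ?_)
      (hDsum i hi)
    by_cases h : D x i ≠ 0
    · exact Or.inr (Or.inl ⟨h, by rw [if_pos h]⟩)
    · left; rw [if_neg h]
  have hrow : ∀ x ∈ S, (2 : ℤ) ≤ ∑ i ∈ Finset.range (e + 1), (if D x i ≠ 0 then (1 : ℤ) else 0) := by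
    intro x hx
    have h1 := two_le_diffs (hne x hx)
    rw [← Finset.sum_filter, Finset.sum_const, nsmul_one]
    exact_mod_cast h1
  have h1 : 2 * (S.card : ℤ) ≤ ∑ i ∈ Finset.range (e + 1), t i := by
    calc 2 * (S.card : ℤ) = ∑ _x ∈ S, (2 : ℤ) := by rw [Finset.sum_const, nsmul_eq_mul, mul_comm]
      _ ≤ ∑ x ∈ S, ∑ i ∈ Finset.range (e + 1), (if D x i ≠ 0 then (1 : ℤ) else 0) :=
          Finset.sum_le_sum hrow
      _ = ∑ i ∈ Finset.range (e + 1), ∑ x ∈ S, (if D x i ≠ 0 then (1 : ℤ) else 0) := Finset.sum_comm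
      _ ≤ _ := Finset.sum_le_sum hcnt
  have h2 : ∑ i ∈ Finset.range (e + 1), t i = 2 * (q * (e + m)) := by
    rw [Finset.sum_range_succ, Finset.range_eq_Ico, Finset.sum_eq_sum_Ico_succ_bot (by omega)]
    have h3 : ∑ i ∈ Finset.Ico (0 + 1) e, t i = (e - 1) * (2 * q) := by
      have h4 : ∀ i ∈ Finset.Ico (0 + 1) e, t i = 2 * q := by
        intro i hi
        rw [Finset.mem_Ico] at hi
        simp only [ht]
        rw [if_neg (by omega)]
      rw [Finset.sum_congr rfl h4, Finset.sum_const, Nat.card_Ico, nsmul_eq_mul]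
      push_cast [he]
      ring
    rw [h3]
    simp only [ht, true_or, or_true, if_true]
    ring
  linarith

end Cfsg.Agent.H4
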