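import Cfsg.Agent.Cyc.General
import Cfsg.Agent.H4.MajorEx

/-!
# A basic set for blocks with cyclic defect groups (owner: helper4)
-/

set_option autoImplicit false
set_option linter.style.haveILetI false
set_option linter.unusedSectionVars false

namespace Cfsg.Agent.H4

open scoped ComplexConjugate BigOperators
open Cfsg Cfsg.Agent.CharBase Cfsg.Agent.Blk Cfsg.Agent.BlkInd Cfsg.Agent.BlkC

universe u

variable {G : Type u} [Group G] [Fintype G] {p : ℕ} [hp : Fact p.Prime] {M : Ideal AlgInt}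
variable {B : Set (IrrCharacter G)}

theorem cyc_basis [M.IsPrime] (hM : IsPModular p M) (hB : IsPBlock M B) {D : Subgroup G}
    (hD : IsCyclic D) {a : ℕ} (ha : 1 ≤ a) (hDa : Nat.card D = p ^ a)
    (hBD : IsDefectGroup p M B D) :
    ∃ (e m : ℕ) (φ : Fin e → IrrCharacter G) (s : Fin e → ℤ) (α : IrrCharacter G → Fin e → ℤ),
      e * m + 1 = p ^ a ∧ 1 ≤ e ∧ 1 ≤ m ∧ (∀ i, φ i ∈ B) ∧ (∀ i, s i = 1 ∨ s i = -1) ∧
      LinearIndependent ℂ (fun i => (s i : ℂ) • pRegularPart p (φ i : G → ℂ)) ∧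
      (∀ η ∈ Bfin B, pRegularPart p (η : G → ℂ) =
        ∑ i, (α η i : ℂ) • ((s i : ℂ) • pRegularPart p (φ i : G → ℂ))) ∧
      (∀ i k, ∑ η ∈ Bfin B, α η i * α η k = (if i = k then 1 else 0) + m) ∧
      Nat.card B = e + m := by
  classical
  obtain ⟨c, hc⟩ := exists_root hM hB hBD
  obtain ⟨D₁, f, χ₁, hd, hcard, hidx, hrank, -⟩ := Cyc.exists_data hM hB hD ha hDa hBD hc
  obtain ⟨hdvd, -, X, Y, hXY, hdisj, hX, hY, -, δ, δ₀, hδ, hδ₀, hrel, -, -⟩ :=
    hd.conclusion hM hBD hcard (by rw [hidx]; exact hrank)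
  set e := (Subgroup.centralizer (D₁ : Set G)).relIndex
    (stab (Subgroup.normalizer (D₁ : Set G)) (EB M _ f)) with he
  rw [← hidx] at hrank
  have hpa : p ^ a - 1 + 1 = p ^ a := Nat.succ_pred_eq_of_pos (pow_pos hp.out.pos _)
  have he1 : 1 ≤ e := by
    rcases Nat.eq_zero_or_pos e with h | h
    · rw [h, zero_dvd_iff] at hdvd
      have := hp.out.two_le
      omega
    · exact h
  have hedvd : e ∣ p ^ a - 1 := by
    refine hdvd.trans ?_
    have := Nat.sub_dvd_pow_sub_pow p 1 a
    rwa [one_pow] at this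
  set m := (p ^ a - 1) / e with hm
  rw [hDa] at hY
  have hem : e * m = p ^ a - 1 := Nat.mul_div_cancel' hedvd
  have hm1 : 1 ≤ m := by
    rcases Nat.eq_zero_or_pos m with h | h
    · rw [h, mul_zero] at hem
      have h1 : p ^ 1 ≤ p ^ a := Nat.pow_le_pow_right hp.out.pos ha
      have := hp.out.two_le
      rw [pow_one] at h1
      omega
    · exact h
  have hXc : (Bfin X).card = e := by rw [← natCard_eq_Bfin]; exact hX
  have hYc : (Bfin Y).card = m := by rw [← natCard_eq_Bfin]; exact hY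
  have hBXY : Bfin B = Bfin X ∪ Bfin Y := by
    ext η
    rw [Finset.mem_union, mem_Bfin, mem_Bfin, mem_Bfin, hXY]; rfl
  have hdisj' : Disjoint (Bfin X) (Bfin Y) := by
    rw [Finset.disjoint_left]
    intro η h1 h2
    exact Set.disjoint_left.mp hdisj (mem_Bfin.mp h1) (mem_Bfin.mp h2)
  have eqv : Fin e ≃ {x // x ∈ Bfin X} := (Finset.equivFinOfCardEq hXc).symm
  set φ : Fin e → IrrCharacter G := fun i => (eqv i : IrrCharacter G) with hφ
  have hφX : ∀ i, φ i ∈ X := fun i => mem_Bfin.mp (eqv i).2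
  have hφB : ∀ i, φ i ∈ B := fun i => by rw [hXY]; exact Or.inl (hφX i)
  have hφinj : Function.Injective φ := fun i k h => eqv.injective (Subtype.ext h)
  have hφsurj : ∀ η ∈ X, ∃ i, φ i = η := fun η hη =>
    ⟨eqv.symm ⟨η, mem_Bfin.mpr hη⟩, by simp [hφ]⟩
  have hsum : ∀ {A : Type} [AddCommMonoid A] (F : IrrCharacter G → A),
      ∑ η ∈ Bfin X, F η = ∑ i, F (φ i) := by
    intro A _ F
    rw [← Finset.sum_coe_sort (Bfin X)]
    exact (Fintype.sum_equiv eqv _ _ fun i => rfl).symm
  set s : Fin e → ℤ := fun i => δ (φ i) with hs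
  have hs1 : ∀ i, s i = 1 ∨ s i = -1 := fun i => hδ _ (hφX i)
  have hss : ∀ i, s i * s i = 1 := fun i => by rcases hs1 i with h | h <;> rw [h] <;> norm_num
  have hδδ : δ₀ * δ₀ = 1 := by rcases hδ₀ with h | h <;> rw [h] <;> norm_num
  set α : IrrCharacter G → Fin e → ℤ := fun η i =>
    if η ∈ X then (if η = φ i then s i else 0) else -δ₀ with hα
  have hαX : ∀ j i, α (φ j) i = if j = i then s i else 0 := by
    intro j i
    simp only [hα]
    rw [if_pos (hφX j)]
    by_cases h : j = i
    · rw [if_pos (by rw [h]), if_pos h]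
    · rw [if_neg (fun h' => h (hφinj h')), if_neg h]
  have hαY : ∀ η ∈ Y, ∀ i, α η i = -δ₀ := by
    intro η hη i
    simp only [hα]
    rw [if_neg (fun h => Set.disjoint_left.mp hdisj h hη)]
  have hreg : ∀ η ∈ Bfin B, pRegularPart p (η : G → ℂ) =
        ∑ i, (α η i : ℂ) • ((s i : ℂ) • pRegularPart p (φ i : G → ℂ)) := by
    intro η hη
    rw [hBXY, Finset.mem_union] at hη
    rcases hη with h | h
    · obtain ⟨j, rfl⟩ := hφsurj η (mem_Bfin.mp h)
      rw [Finset.sum_eq_single j]
      · rw [hαX, if_pos rfl, smul_smul]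
        have : ((s j : ℂ) * (s j : ℂ)) = 1 := by exact_mod_cast hss j
        rw [this, one_smul]
      · intro i _ hij
        rw [hαX, if_neg (Ne.symm hij)]; simp
      · intro h'; exact absurd (Finset.mem_univ j) h'
    · have hηY := mem_Bfin.mp h
      funext g
      rw [Finset.sum_apply]
      by_cases hg : p ∣ orderOf g
      · rw [pRegularPart_apply_of_sing hg]
        symm
        refine Finset.sum_eq_zero fun i _ => ?_
        simp only [Pi.smul_apply]
        rw [pRegularPart_apply_of_sing hg, smul_zero, smul_zero]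
      · rw [pRegularPart_apply_of_reg hg]
        have h1 := hrel η hηY g hg
        rw [finsum_mem_eq_Bfin, hsum (fun χ => (δ χ : ℂ) * (χ : G → ℂ) g)] at h1
        have h2 : ∀ i, ((α η i : ℂ) • ((s i : ℂ) • pRegularPart p (φ i : G → ℂ))) g =
            -(δ₀ : ℂ) * ((δ (φ i) : ℂ) * (φ i : G → ℂ) g) := by
          intro i
          simp only [Pi.smul_apply, smul_eq_mul]
          rw [pRegularPart_apply_of_reg hg, hαY η hηY]
          push_cast; ring
        rw [Finset.sum_congr rfl fun i _ => h2 i, ← Finset.mul_sum]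
        have h3 : ((δ₀ : ℂ) * (δ₀ : ℂ)) = 1 := by exact_mod_cast hδδ
        linear_combination (δ₀ : ℂ) * h1 - (η : G → ℂ) g * h3
  refine ⟨e, m, φ, s, α, by omega, he1, hm1, hφB, hs1, ?_, hreg, ?_, ?_⟩
  · rw [linearIndependent_iff_card_le_finrank_span, Fintype.card_fin]
    refine hrank.trans ?_
    unfold blockRank Set.finrank
    refine Submodule.finrank_mono ?_
    rw [Submodule.span_le]
    rintro _ ⟨η, hη, rfl⟩
    have h1 := hreg η (mem_Bfin.mpr hη)
    rw [SetLike.mem_coe]
    change pRegularPart p (η : G → ℂ) ∈ _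
    rw [h1]
    exact Submodule.sum_mem _ fun i _ => Submodule.smul_mem _ _ (Submodule.subset_span ⟨i, rfl⟩)
  · intro i k
    rw [hBXY, Finset.sum_union hdisj', hsum (fun η => α η i * α η k)]
    have h1 : ∑ j, α (φ j) i * α (φ j) k = if i = k then 1 else 0 := by
      simp only [hαX]
      by_cases h : i = k
      · subst h
        rw [if_pos rfl, Finset.sum_eq_single i]
        · rw [if_pos rfl]; exact hss i
        · intro j _ hj; rw [if_neg hj, zero_mul]
        · intro h'; exact absurd (Finset.mem_univ i) h'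
      · rw [if_neg h]
        refine Finset.sum_eq_zero fun j _ => ?_
        by_cases hji : j = i
        · rw [if_neg (fun h' => h (hji.symm.trans h')), mul_zero]
        · rw [if_neg hji, zero_mul]
    have h2 : ∑ η ∈ Bfin Y, α η i * α η k = m := by
      rw [Finset.sum_congr rfl fun η hη => by
        rw [hαY η (mem_Bfin.mp hη), hαY η (mem_Bfin.mp hη), neg_mul_neg, hδδ],
        Finset.sum_const, hYc, nsmul_eq_mul, mul_one]
    rw [h1, h2]
  · rw [natCard_eq_Bfin, hBXY, Finset.card_union_of_disjoint hdisj', hXc, hYc]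

end Cfsg.Agent.H4
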