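import Cfsg.Agent.H4.Dom
import Cfsg.Agent.H4.CycBasis
import Cfsg.Agent.H4.ChainCount
import Cfsg.Agent.H4.RankTwo
import Cfsg.Agent.H4.RankLoc

/-!
# Major subsections with cyclic quotient defect group (owner: helper4)
-/

set_option autoImplicit false
set_option linter.style.haveILetI false
set_option linter.unusedSectionVars false

namespace Cfsg.Agent.H4

open scoped ComplexConjugate BigOperators
open Cfsg Cfsg.Agent.CharBase Cfsg.Agent.Blk Cfsg.Agent.BlkInd Cfsg.Agent.BlkC

universe u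

variable {G : Type u} [Group G] [Fintype G] {p : ℕ} [hp : Fact p.Prime] {M : Ideal AlgInt}
variable {C : Subgroup G} [Fintype C] {B : Set (IrrCharacter G)}

/-- coordinates of the parts of the characters of `B` with respect to a basic set -/
theorem coords_of_basis (hM : IsPModular p M) {x : G} {j : ℕ}
    (hx : ∃ k : ℕ, k ≤ j + 1 ∧ orderOf x = p ^ k)
    (hC : C = Subgroup.centralizer ({x} : Set G)) {e : Set (IrrCharacter C)}
    (hind : IsInducedBlock M C e B) {n : ℕ} {φ : Fin n → C → ℂ} (hφ : LinearIndependent ℂ φ)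
    {α : IrrCharacter C → Fin n → ℤ}
    (hα : ∀ η ∈ Bfin e, pRegularPart p (η : C → ℂ) = ∑ i, (α η i : ℂ) • φ i) :
    ∃ d : IrrCharacter G → Fin n → ℂ, (∀ χ i, d χ i ∈ cycRing (p ^ (j + 1))) ∧
      (∀ χ : IrrCharacter G, dpart p x e (χ : G → ℂ) = ∑ i, d χ i • φ i) ∧
      (∀ i k, ∑ χ ∈ Bfin B, d χ i * conj (d χ k) = ((∑ η ∈ Bfin e, α η i * α η k : ℤ) : ℂ)) := by
  classical
  haveI := isPrime_of_isPModular hM
  obtain ⟨k, hkj, hk⟩ := hx
  have hx' : ∃ k : ℕ, orderOf x = p ^ k := ⟨k, hk⟩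
  have hdiv : orderOf x ∣ p ^ (j + 1) := by rw [hk]; exact pow_dvd_pow _ hkj
  have he := hind.1
  have hdco : ∀ (χ : IrrCharacter G) (η : IrrCharacter C), dco x (χ : G → ℂ) η ∈
      cycRing (p ^ (j + 1)) := by
    intro χ η
    obtain ⟨ω, hω, h⟩ := exists_dco_eq hC χ η
    rw [h]
    refine Subring.mul_mem _ (Subring.subset_closure ?_) (natCast_mem _ _)
    change ω ^ (p ^ (j + 1)) = 1
    obtain ⟨m, hm⟩ := hdiv
    rw [hm, pow_mul, hω, one_pow]
  set d : IrrCharacter G → Fin n → ℂ := fun χ i => ∑ η ∈ Bfin e, dco x (χ : G → ℂ) η * (α η i : ℂ)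
    with hd
  have hdp : ∀ χ : IrrCharacter G, dpart p x e (χ : G → ℂ) = ∑ i, d χ i • φ i := by
    intro χ
    rw [dpart_eq_sum']
    have h1 : ∀ η ∈ Bfin e, dco x (χ : G → ℂ) η • pRegularPart p (η : C → ℂ) =
        ∑ i, (dco x (χ : G → ℂ) η * (α η i : ℂ)) • φ i := by
      intro η hη
      rw [hα η hη, Finset.smul_sum]
      exact Finset.sum_congr rfl fun i _ => by rw [smul_smul]
    rw [Finset.sum_congr rfl h1, Finset.sum_comm]
    refine Finset.sum_congr rfl fun i _ => ?_
    rw [hd, Finset.sum_smul]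
  refine ⟨d, ?_, hdp, ?_⟩
  · intro χ i
    exact Subring.sum_mem _ fun η _ => Subring.mul_mem _ (hdco χ η) (intCast_mem _ _)
  · refine eq_of_kernel_eq (E := fun i k => ∑ χ ∈ Bfin B, d χ i * conj (d χ k))
      (E' := fun i k => ((∑ η ∈ Bfin e, α η i * α η k : ℤ) : ℂ)) hφ fun s t => ?_
    have h1 : ∑ i, ∑ k, (∑ χ ∈ Bfin B, d χ i * conj (d χ k)) * (φ i s * conj (φ k t)) =
        ∑ χ ∈ Bfin B, dpart p x e (χ : G → ℂ) s * conj (dpart p x e (χ : G → ℂ) t) := by
      simp only [hdp, Finset.sum_apply, Pi.smul_apply, smul_eq_mul, map_sum, map_mul,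
        Finset.sum_mul_sum]
      rw [← sum3_comm]
      refine Finset.sum_congr rfl fun i _ => Finset.sum_congr rfl fun k _ => ?_
      rw [Finset.sum_mul]
      exact Finset.sum_congr rfl fun χ _ => by ring
    have h2 : ∑ i, ∑ k, ((∑ η ∈ Bfin e, α η i * α η k : ℤ) : ℂ) * (φ i s * conj (φ k t)) =
        ∑ η ∈ Bfin e, pRegularPart p (η : C → ℂ) s * conj (pRegularPart p (η : C → ℂ) t) := by
      have h3 : ∀ η ∈ Bfin e, pRegularPart p (η : C → ℂ) s * conj (pRegularPart p (η : C → ℂ) t) =
          ∑ i, ∑ k, ((α η i : ℂ) * φ i s) * (conj ((α η k : ℂ) * φ k t)) := by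
        intro η hη
        rw [← Finset.sum_mul_sum, ← map_sum]
        have h4 := congrFun (hα η hη) s
        have h5 := congrFun (hα η hη) t
        simp only [Finset.sum_apply, Pi.smul_apply, smul_eq_mul] at h4 h5
        rw [h4, h5]
      rw [Finset.sum_congr rfl h3, ← sum3_comm]
      refine Finset.sum_congr rfl fun i _ => Finset.sum_congr rfl fun k _ => ?_
      push_cast
      rw [Finset.sum_mul]
      refine Finset.sum_congr rfl fun η _ => ?_
      rw [map_mul, map_intCast]; ring
    have hker : ∑ χ ∈ Bfin B, dpart p x e (χ : G → ℂ) s * conj (dpart p x e (χ : G → ℂ) t) =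
        ∑ η ∈ Bfin e, pRegularPart p (η : C → ℂ) s * conj (pRegularPart p (η : C → ℂ) t) := by
      by_cases hs : p ∣ orderOf s
      · rw [Finset.sum_eq_zero fun χ _ => by rw [dpart_of_sing _ hs, zero_mul],
          Finset.sum_eq_zero fun η _ => by rw [pRegularPart_apply_of_sing hs, zero_mul]]
      by_cases ht : p ∣ orderOf t
      · rw [Finset.sum_eq_zero fun χ _ => by rw [dpart_of_sing _ ht, map_zero, mul_zero],
          Finset.sum_eq_zero fun η _ => by
            rw [pRegularPart_apply_of_sing ht, map_zero, mul_zero]]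
      rw [sum_dpart_mul_conj_block hM hx' hC hind hs ht, blockKernel_eq_Bfin]
      refine Finset.sum_congr rfl fun η _ => ?_
      rw [pRegularPart_apply_of_reg hs, pRegularPart_apply_of_reg ht]
    rw [h1, h2, hker]

/-- **cyclic quotient**: if the defect group of `b` modulo a central subgroup is cyclic then
`k(B) ≤ p^d` -/
theorem card_le_of_cyclic_quot (hM : IsPModular p M) (hB : IsPBlock M B) {x : G}
    (hx : ∃ k : ℕ, orderOf x = p ^ k)
    (hC : C = Subgroup.centralizer ({x} : Set G)) {b : Set (IrrCharacter C)}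
    (hind : IsInducedBlock M C b B) (hd : blockDefect p b = blockDefect p B)
    {Q : Subgroup C} [Q.Normal] (hQ : IsPGroup p Q) (hQc : Q ≤ Subgroup.center C)
    {D : Subgroup C} (hD : IsDefectGroup p M b D) (hQD : Q ≤ D)
    (hcyc : IsCyclic (D.map (QuotientGroup.mk' Q))) : Nat.card B ≤ p ^ blockDefect p B := by
  classical
  haveI := isPrime_of_isPModular hM
  haveI : Fintype (C ⧸ Q) := Fintype.ofFinite _
  have hb := hind.1
  have hDp := isPGroup_of_isDefectGroup hD
  have hcardD : Nat.card D = Nat.card Q * Nat.card (D.map (QuotientGroup.mk' Q)) := by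
    have h1 := Subgroup.card_mul_index (Q.subgroupOf D)
    have h2 : (Q.subgroupOf D).index = Nat.card (D.map (QuotientGroup.mk' Q)) := by
      have h3 : ((QuotientGroup.mk' Q).subgroupMap D).ker = Q.subgroupOf D := by
        ext d
        rw [MonoidHom.mem_ker, Subgroup.mem_subgroupOf]
        constructor
        · intro h
          have h4 := congrArg Subtype.val h
          change (QuotientGroup.mk (d : C) : C ⧸ Q) = 1 at h4
          exact (QuotientGroup.eq_one_iff _).mp h4
        · intro h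
          apply Subtype.ext
          change (QuotientGroup.mk (d : C) : C ⧸ Q) = 1
          exact (QuotientGroup.eq_one_iff _).mpr h
      have h5 := (QuotientGroup.mk' Q).subgroupMap_surjective D
      rw [← h3, Subgroup.index_ker, MonoidHom.range_eq_top.mpr h5]
      exact Subgroup.card_top
    have h3 : Nat.card (Q.subgroupOf D) = Nat.card Q :=
      Nat.card_congr (Subgroup.subgroupOfEquivOfLe hQD).toEquiv
    rw [← h1, h2, h3]
  have hcd := card_defectGroup hM hb hD
  rw [hd] at hcd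
  rw [natCard_eq_Bfin]
  obtain ⟨a, ha⟩ : ∃ a : ℕ, Nat.card (D.map (QuotientGroup.mk' Q)) = p ^ a :=
    IsPGroup.iff_card.mp (hDp.map _)
  rcases Nat.eq_zero_or_pos a with h0 | h0
  · -- trivial quotient
    have hDQ : D ≤ Q := by
      rw [h0, pow_zero] at ha
      have h1 : D.map (QuotientGroup.mk' Q) = ⊥ := Subgroup.card_eq_one.mp ha
      rwa [Subgroup.map_eq_bot_iff, QuotientGroup.ker_mk'] at h1
    have hrank := blockRank_eq_one_of_central hM hb (hDQ.trans hQc) hD hDp
    exact card_le_of_rank_le_two hM hB hx hC hind hd (by omega)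
  · obtain ⟨n, m, φ, s, α, hnm, hn1, hm1, hφb, hs1, hlin, hreg, hgram, -⟩ :=
      cyc_basis hM (isPBlock_dom hM hQ hQc hb) hcyc h0 ha (defect_dom hM hQ hQc hb hD)
    set Φ : Fin n → C → ℂ := fun i => (s i : ℂ) •
      pRegularPart p ((inflI (φ i) : IrrCharacter C) : C → ℂ) with hΦ
    set ψ : Fin n → C ⧸ Q → ℂ := fun i => (s i : ℂ) • pRegularPart p (φ i : C ⧸ Q → ℂ) with hψ
    have hΦψ : ∀ i (g : C), ¬ p ∣ orderOf g → Φ i g = ψ i (QuotientGroup.mk g) := by
      intro i g hg
      simp only [hΦ, hψ, Pi.smul_apply]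
      rw [pRegularPart_apply_of_reg hg, pRegularPart_apply_of_reg (regular_mk hg)]
      rfl
    have hΦ0 : ∀ i (g : C), p ∣ orderOf g → Φ i g = 0 := by
      intro i g hg
      simp only [hΦ, Pi.smul_apply]
      rw [pRegularPart_apply_of_sing hg, smul_zero]
    have hΦlin : LinearIndependent ℂ Φ := by
      rw [Fintype.linearIndependent_iff] at hlin ⊢
      intro c hc
      refine hlin c ?_
      funext y
      rw [Finset.sum_apply]
      by_cases hy : p ∣ orderOf y
      · refine Finset.sum_eq_zero fun i _ => ?_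
        simp only [hψ, Pi.smul_apply]
        rw [pRegularPart_apply_of_sing hy, smul_zero, smul_zero]
      · obtain ⟨g, hg, rfl⟩ := BlkInd.exists_regular_lift hy
        have h1 := congrFun hc g
        rw [Finset.sum_apply] at h1
        refine Eq.trans (Finset.sum_congr rfl fun i _ => ?_) h1
        rw [Pi.smul_apply, Pi.smul_apply, hΦψ i g hg]
    choose! nn hnn using fun η (hη : η ∈ b) => exists_int_expand hM hQ hQc hb hη
    set α' : IrrCharacter C → Fin n → ℤ := fun η i => ∑ θ ∈ Bfin (dom Q b), nn η θ * α θ i with hα'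
    have hregψ : ∀ θ ∈ Bfin (dom Q b), ∀ g : C, ¬ p ∣ orderOf g →
        (θ : C ⧸ Q → ℂ) (QuotientGroup.mk g) = ∑ i, (α θ i : ℂ) * Φ i g := by
      intro θ hθ g hg
      have h1 := congrFun (hreg θ hθ) (QuotientGroup.mk g)
      rw [pRegularPart_apply_of_reg (regular_mk hg), Finset.sum_apply] at h1
      rw [h1]
      refine Finset.sum_congr rfl fun i _ => ?_
      rw [Pi.smul_apply, hΦψ i g hg, smul_eq_mul]
    have hα'reg : ∀ η ∈ Bfin b, pRegularPart p (η : C → ℂ) = ∑ i, (α' η i : ℂ) • Φ i := by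
      intro η hη
      funext g
      rw [Finset.sum_apply]
      by_cases hg : p ∣ orderOf g
      · rw [pRegularPart_apply_of_sing hg]
        symm
        refine Finset.sum_eq_zero fun i _ => ?_
        rw [Pi.smul_apply, hΦ0 i g hg, smul_zero]
      · rw [pRegularPart_apply_of_reg hg, hnn η (mem_Bfin.mp hη) g hg]
        have h1 : ∀ θ ∈ Bfin (dom Q b), (nn η θ : ℂ) * (θ : C ⧸ Q → ℂ) (QuotientGroup.mk g) =
            ∑ i, ((nn η θ : ℂ) * (α θ i : ℂ)) * Φ i g := by
          intro θ hθ
          rw [hregψ θ hθ g hg, Finset.mul_sum]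
          exact Finset.sum_congr rfl fun i _ => by ring
        rw [Finset.sum_congr rfl h1, Finset.sum_comm]
        refine Finset.sum_congr rfl fun i _ => ?_
        rw [← Finset.sum_mul, Pi.smul_apply, smul_eq_mul]
        simp only [hα']
        push_cast
        rfl
    -- the Gram matrix
    have hgram' : ∀ i k, ((∑ η ∈ Bfin b, α' η i * α' η k : ℤ) : ℂ) =
        (((Nat.card Q : ℤ) * ((if i = k then 1 else 0) + (m : ℤ)) : ℤ) : ℂ) := by
      refine eq_of_kernel_eq (E := fun i k => ((∑ η ∈ Bfin b, α' η i * α' η k : ℤ) : ℂ))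
        (E' := fun i k => (((Nat.card Q : ℤ) * ((if i = k then 1 else 0) + (m : ℤ)) : ℤ) : ℂ))
        hΦlin fun s t => ?_
      by_cases hs : p ∣ orderOf s
      · simp [hΦ0 _ s hs]
      by_cases ht : p ∣ orderOf t
      · simp [hΦ0 _ t ht]
      have h2 : ∑ i, ∑ k, ((∑ η ∈ Bfin b, α' η i * α' η k : ℤ) : ℂ) * (Φ i s * conj (Φ k t)) =
          blockKernel b s t := by
        rw [blockKernel_eq_Bfin]
        have h3 : ∀ η ∈ Bfin b, (η : C → ℂ) s * conj ((η : C → ℂ) t) =
            ∑ i, ∑ k, ((α' η i : ℂ) * Φ i s) * (conj ((α' η k : ℂ) * Φ k t)) := by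
          intro η hη
          rw [← Finset.sum_mul_sum, ← map_sum]
          have h4 := congrFun (hα'reg η hη) s
          have h5 := congrFun (hα'reg η hη) t
          rw [pRegularPart_apply_of_reg hs] at h4
          rw [pRegularPart_apply_of_reg ht] at h5
          simp only [Finset.sum_apply, Pi.smul_apply, smul_eq_mul] at h4 h5
          rw [h4, h5]
        rw [Finset.sum_congr rfl h3, ← sum3_comm]
        refine Finset.sum_congr rfl fun i _ => Finset.sum_congr rfl fun k _ => ?_
        push_cast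
        rw [Finset.sum_mul]
        refine Finset.sum_congr rfl fun η _ => ?_
        rw [map_mul, map_intCast]; ring
      have h6 : ∑ i, ∑ k, (((Nat.card Q : ℤ) * ((if i = k then 1 else 0) + (m : ℤ)) : ℤ) : ℂ) *
          (Φ i s * conj (Φ k t)) = (Nat.card Q : ℂ) *
            ∑ θ ∈ Bfin (dom Q b), (θ : C ⧸ Q → ℂ) (QuotientGroup.mk s) *
              conj ((θ : C ⧸ Q → ℂ) (QuotientGroup.mk t)) := by
        have h3 : ∀ θ ∈ Bfin (dom Q b), (θ : C ⧸ Q → ℂ) (QuotientGroup.mk s) *
              conj ((θ : C ⧸ Q → ℂ) (QuotientGroup.mk t)) =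
            ∑ i, ∑ k, ((α θ i : ℂ) * Φ i s) * (conj ((α θ k : ℂ) * Φ k t)) := by
          intro θ hθ
          rw [← Finset.sum_mul_sum, ← map_sum, hregψ θ hθ s hs, hregψ θ hθ t ht]
        rw [Finset.sum_congr rfl h3, ← sum3_comm, Finset.mul_sum]
        refine Finset.sum_congr rfl fun i _ => ?_
        rw [Finset.mul_sum]
        refine Finset.sum_congr rfl fun k _ => ?_
        rw [← hgram i k]
        push_cast
        rw [Finset.mul_sum, Finset.mul_sum, Finset.sum_mul]
        refine Finset.sum_congr rfl fun θ _ => ?_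
        rw [map_mul, map_intCast]; ring
      rw [h2, h6, kernel_dom hM hQ hQc hb hs ht]
    obtain ⟨k, hk⟩ := hx
    obtain ⟨d, hdmem, hdp, hdsum⟩ := coords_of_basis hM (j := k) ⟨k, Nat.le_succ k, hk⟩ hC hind
      hΦlin hα'reg
    obtain ⟨V1, -, -⟩ := major_val hM hB ⟨k, hk⟩ hC hind hd
    obtain ⟨ψ₀, hψ₀, h₀⟩ := exists_height_zero (p := p) hM hB
    have hcount := chain_count hM (j := k) (Bfin B) hn1 d (fun χ _ i => hdmem χ i)
      (fun χ hχ h => by
        apply V1 χ (mem_Bfin.mp hχ) ψ₀ hψ₀ h₀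
        rw [sc_eq_hf, hdp χ, h]
        simp [hf])
      (Nat.card Q : ℤ) (m : ℤ) (fun i k => by rw [hdsum, hgram'])
    have h1 : (Bfin B).card ≤ Nat.card Q * (n + m) := by exact_mod_cast hcount
    refine h1.trans ?_
    rw [← hcd, hcardD, ha, ← hnm]
    refine Nat.mul_le_mul_left _ ?_
    nlinarith

end Cfsg.Agent.H4
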