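import Cfsg.Agent.H4.AbBound

/-!
# The bound `k(B) ≤ p^(2d-2)` (owner: helper4)
-/

set_option autoImplicit false
set_option linter.style.haveILetI false
set_option linter.unusedSectionVars false

namespace Cfsg.Agent.H4

open scoped ComplexConjugate BigOperators Pointwise
open Cfsg Cfsg.Agent.CharBase Cfsg.Agent.Blk Cfsg.Agent.BlkInd Cfsg.Agent.BlkC

universe u

theorem arith_bound {p K k0 k' : ℤ} (hp : 2 ≤ p) (hk0 : 1 ≤ k0) (hk' : 0 ≤ k') (hK : 1 ≤ K)
    (h1 : k0 * k0 + 2 * p ^ 2 * k0 * k' ≤ K * K) (h2 : 4 * (k0 + p ^ 2 * k') ≤ p ^ 2 * K + 4) :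
    k0 + k' ≤ K := by
  have hp2 : 4 ≤ p ^ 2 := by nlinarith
  have h3 : 4 * k' ≤ K := by
    have h4 : p ^ 2 * (4 * k') ≤ p ^ 2 * K := by linarith
    exact le_of_mul_le_mul_left h4 (by linarith)
  have h0 : 0 ≤ k0 * k' := mul_nonneg (by linarith) hk'
  have hle : k0 ≤ K := by
    have h5 : 0 ≤ 2 * p ^ 2 * k0 * k' := by
      have := mul_nonneg (by linarith : (0 : ℤ) ≤ 2 * p ^ 2) h0
      linarith [this]
    nlinarith
  rcases le_or_gt (4 * k0) (3 * K) with h | h
  · linarith
  · -- k0 > 3K/4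
    have h5 : 8 * (k0 * k') ≤ 2 * p ^ 2 * k0 * k' := by nlinarith
    have h6 : 6 * (K * k') ≤ 8 * (k0 * k') := by nlinarith
    have h7 : 6 * (K * k') ≤ (K - k0) * (2 * K) := by
      have h8 : (K - k0) * (K + k0) ≤ (K - k0) * (2 * K) :=
        mul_le_mul_of_nonneg_left (by linarith) (by linarith)
      nlinarith
    have h9 : K * (3 * k') ≤ K * (K - k0) := by nlinarith
    have h10 := le_of_mul_le_mul_left h9 (by linarith)
    linarith

theorem general_bound {p : ℕ} [hp : Fact p.Prime] {M : Ideal AlgInt} (hM : IsPModular p M)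
    (d : ℕ) : ∀ {G : Type u} [Group G] [Fintype G] {B : Set (IrrCharacter G)},
      IsPBlock M B → blockDefect p B = d → 3 ≤ d → Nat.card B ≤ p ^ (2 * d - 2) := by
  induction d using Nat.strong_induction_on with
  | _ d ih =>
  intro G _ _ B hB hd h3
  classical
  haveI := isPrime_of_isPModular hM
  have hpp := hp.out
  obtain ⟨D, hD⟩ := exists_defectGroup hM hB
  have hcD : Nat.card D = p ^ blockDefect p B := card_defectGroup hM hB hD
  rw [hd] at hcD
  have hDp := isPGroup_of_isDefectGroup hD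
  -- a central element of order `p`
  obtain ⟨z, hzD, hzc, hzo⟩ : ∃ z : G, z ∈ D ∧ (∀ d ∈ D, d * z = z * d) ∧ orderOf z = p := by
    haveI : Nontrivial D := by
      rw [← Finite.one_lt_card_iff_nontrivial, hcD]
      exact Nat.one_lt_pow (by omega) hpp.one_lt
    haveI := hDp.center_nontrivial
    obtain ⟨k, hk⟩ := IsPGroup.iff_card.mp (hDp.to_subgroup (Subgroup.center D))
    have hk0 : k ≠ 0 := by
      rintro rfl
      rw [pow_zero] at hk
      have := Finite.one_lt_card (α := Subgroup.center D)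
      omega
    obtain ⟨y, hy⟩ := exists_prime_orderOf_dvd_card' (G := Subgroup.center D) p
      (by rw [hk]; exact dvd_pow_self p hk0)
    refine ⟨((y : D) : G), (y : D).2, fun e he => ?_, ?_⟩
    · exact congrArg Subtype.val (Subgroup.mem_center_iff.mp y.2 ⟨e, he⟩)
    · rw [Subgroup.orderOf_coe, Subgroup.orderOf_coe]; exact hy
  have hDC : D ≤ Subgroup.centralizer ({z} : Set G) := by
    intro e he
    rw [Subgroup.mem_centralizer_singleton_iff]
    exact hzc e he
  obtain ⟨b, hind, hbD, hz, hdb⟩ := exists_setup hM hB hD hzD hDC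
  haveI := Fintype.ofFinite (Subgroup.centralizer ({z} : Set G))
  haveI := Fintype.ofFinite (Subgroup.centralizer ({z} : Set G) ⧸ Subgroup.zpowers (zc z))
  have hQp : IsPGroup p (Subgroup.zpowers (zc z)) := isPGroup_zc hz
  have hQc := zpowers_zc_le z
  have hdom := isPBlock_dom hM hQp hQc hind.1
  have hdef := defect_dom hM hQp hQc hind.1 hbD
  rw [← quotMap_range hDC] at hdef
  have hcard := card_quotMap hDC hzD
  have hdd : blockDefect p (dom (Subgroup.zpowers (zc z)) b) = d - 1 := by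
    have h1 := card_defectGroup hM hdom hdef
    rw [h1, hcD, hzo] at hcard
    have h2 : p * p ^ (d - 1) = p * p ^ blockDefect p (dom (Subgroup.zpowers (zc z)) b) := by
      rw [← hcard, ← pow_succ']
      congr 1
      omega
    exact (Nat.pow_right_injective hpp.two_le (Nat.eq_of_mul_eq_mul_left hpp.pos h2)).symm
  have hk : Nat.card (dom (Subgroup.zpowers (zc z)) b) ≤ p ^ (2 * d - 4) := by
    rcases Nat.lt_or_ge (d - 1) 3 with h | h
    · have h1 := card_le_of_defect_le_two hM hdom (by omega)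
      refine h1.trans (Nat.pow_le_pow_right hpp.pos (by omega))
    · have h1 := ih (d - 1) (by omega) hdom hdd h
      refine h1.trans (Nat.pow_le_pow_right hpp.pos (by omega))
  have hl : blockRank p b ≤ p ^ (2 * d - 4) := (rank_le_card_dom hM hQp hQc hind.1).trans hk
  have hpb := pairs_bound hM hB hz rfl hind hdb
  have hbf := brauer_feit_weighted (p := p) hM hB
  rw [hd] at hpb hbf
  obtain ⟨ψ, hψ, hψ0⟩ := exists_height_zero (p := p) hM hB
  have hB0 : (B0 p B).card ≤ (Bfin B).card := Finset.card_le_card (Finset.filter_subset _ _)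
  have hB01 : 1 ≤ (B0 p B).card := Finset.card_pos.mpr ⟨ψ, mem_B0.mpr ⟨hψ, hψ0⟩⟩
  have hsum : (B0 p B).card + p ^ 2 * ((Bfin B).card - (B0 p B).card) ≤
      ∑ χ ∈ Bfin B, p ^ (2 * blockHeight p B (χ : G → ℂ)) := by
    have h1 : ∀ χ ∈ Bfin B, (if blockHeight p B (χ : G → ℂ) = 0 then 1 else p ^ 2) ≤
        p ^ (2 * blockHeight p B (χ : G → ℂ)) := by
      intro χ _
      by_cases h : blockHeight p B (χ : G → ℂ) = 0
      · rw [if_pos h, h]; simp
      · rw [if_neg h]
        exact Nat.pow_le_pow_right hpp.pos (by omega)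
    refine le_trans (le_of_eq ?_) (Finset.sum_le_sum h1)
    rw [Finset.sum_ite, Finset.sum_const, Finset.sum_const, smul_eq_mul, smul_eq_mul, mul_one]
    have h2 : ((Bfin B).filter fun χ : IrrCharacter G => blockHeight p B (χ : G → ℂ) = 0).card =
        (B0 p B).card := by
      unfold B0; congr
    have h3 := Finset.card_filter_add_card_filter_not (s := Bfin B)
      (fun χ : IrrCharacter G => blockHeight p B (χ : G → ℂ) = 0)
    rw [h2] at h3
    rw [h2, mul_comm (p ^ 2)]
    congr 2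
    omega
  rw [natCard_eq_Bfin]
  set k0 := (B0 p B).card with hk0
  set k := (Bfin B).card with hkk
  set K := p ^ (2 * d - 2) with hK
  have hK1 : 1 ≤ K := Nat.one_le_pow _ _ hpp.pos
  have hpK : p ^ (2 * d) = p ^ 2 * K := by rw [hK, ← pow_add]; congr 1; omega
  have hKK : p ^ (2 * d) * p ^ (2 * d - 4) = K * K := by
    rw [hK, ← pow_add, ← pow_add]; congr 1; omega
  have hi : k0 * k0 + 2 * p ^ 2 * k0 * (k - k0) ≤ K * K := by
    rw [← hKK]
    exact hpb.trans (Nat.mul_le_mul_left _ hl)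
  have hii : 4 * (k0 + p ^ 2 * (k - k0)) ≤ p ^ 2 * K + 4 := by
    rw [← hpK]
    exact (Nat.mul_le_mul_left 4 hsum).trans hbf
  zify [hB0] at hi hii
  have hfin := arith_bound (p := (p : ℤ)) (K := (K : ℤ)) (k0 := (k0 : ℤ)) (k' := (k : ℤ) - k0)
    (by exact_mod_cast hpp.two_le) (by exact_mod_cast hB01)
    (by have : (k0 : ℤ) ≤ k := by exact_mod_cast hB0
        linarith) (by exact_mod_cast hK1) hi hii
  have : (k : ℤ) ≤ K := by linarith
  exact_mod_cast this

end Cfsg.Agent.H4
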