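import Cfsg.Agent.Star.Part
import Cfsg.Agent.Star.Dec3
import Cfsg.Agent.BlkC.SubPair
import Cfsg.Agent.Char.Galois
import Cfsg.Agent.Blk.Orth

/-!
# The trace of a power map on the characters of a block (owner: helper4)
-/

set_option autoImplicit false
set_option linter.style.haveILetI false
set_option linter.unusedSectionVars false

universe u

namespace Cfsg.Agent.H4.PRat

open scoped ComplexConjugate
open Cfsg Cfsg.Agent.CharBase Cfsg.Agent.Blk Cfsg.Agent.BlkC Cfsg.Agent.BlkInd Cfsg.Agent.Star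
open MonoidAlgebra

section A

variable {p : ℕ} [hp : Fact p.Prime] {M : Ideal AlgInt} [hMp : M.IsPrime]
  {C : Type u} [Group C] [Fintype C]

theorem cf_aut {f : C → ℂ} (hf : IsClassFunction C f) (α : C ≃* C) :
    IsClassFunction C (fun c => f (α c)) := by
  intro g u
  show f (α (u * g * u⁻¹)) = _
  rw [map_mul, map_mul, map_inv]
  exact hf (α g) (α u)

/-- the coefficient of a Brauer character in its image under an automorphism is a natural number -/
theorem tz_phi_aut (hM : IsPModular p M) (α : C ≃* C) (i : PI (MonoidAlgebra (kM M) C)) :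
    ∃ n : ℕ, tz M (fun c => phi hM i (α c)) (pj i) = n := by
  obtain ⟨x, hx⟩ := exists_L (M := M) (prim_pj i).idem
  have hcf : IsClassFunction C (fun c => phi hM i (α c)) := cf_aut (phi_cf hM i) α
  obtain ⟨y, hy⟩ : ∃ y, y = MonoidAlgebra.domCongr ℂ ℂ α x := ⟨_, rfl⟩
  have hyc : ∀ g, y.coeff g = x.coeff (α.symm g) := fun g => by
    rw [hy]; exact MonoidAlgebra.coeff_domCongr _ _ _
  have hyi : y * y = y := by rw [hy, ← map_mul, hx.idem]
  have hyl : LR M y := fun g => by rw [hyc]; exact hx.lr _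
  have hyL : IsL M (red M y) y := isL_iff.2 ⟨hyl, hyi, rfl⟩
  have h1 : tz M (fun c => phi hM i (α c)) (pj i) = tz M (phi hM i) (red M y) := by
    rw [tz_eq hcf hx, tz_eq (phi_cf hM i) hyL, Tc_eq, Tc_eq]
    refine Fintype.sum_equiv α.toEquiv _ _ fun g => ?_
    show _ = y.coeff (α g) * _
    rw [hyc, α.symm_apply_apply]
    rfl
  refine ⟨mu (red M y) i, ?_⟩
  rw [h1, tz_phi_eq hM]
  rw [← red_mul hyl hyl, hyi]

theorem classInner_Pe {f : C → ℂ} (hf : IsClassFunction C f)
    {e : MonoidAlgebra (kM M) C} (hee : e * e = e) : classInner f (Pe e) = tz M f e := by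
  have h1 : classInner f (Pe e) = ∑ χ : IrrCharacter C, classInner f (χ : C → ℂ) *
      tz M (χ : C → ℂ) e := by
    unfold classInner Pe
    simp_rw [map_sum, Finset.mul_sum]
    rw [Finset.sum_comm]
    refine Finset.sum_congr rfl fun χ _ => ?_
    rw [Finset.sum_mul]
    refine Finset.sum_congr rfl fun c _ => ?_
    rw [map_mul, tz_conj (irr_isCharacter χ) hee]
    ring
  rw [h1]
  have h2 : f = fun g => ∑ χ : IrrCharacter C, classInner f (χ : C → ℂ) * (χ : C → ℂ) g := by
    funext g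
    exact classFun_apply_eq_sum hf g
  conv_rhs => rw [h2]
  rw [tz_lin _ _ (fun χ _ => irr_isClassFunction χ) hee]

theorem kernel_eq (hM : IsPModular p M) {e : Set (IrrCharacter C)} (he : IsPBlock M e)
    {y : C} (hy : ¬ p ∣ orderOf y) (s : C) [DecidablePred (InB (M := M) e)] :
    blockKernel e y s = ∑ i ∈ Finset.univ.filter (InB (M := M) e),
      phi hM i y * conj (Pe (pj i) s) := by
  rw [blockKernel_eq_Bfin]
  have h1 : ∀ χ ∈ Bfin e, (χ : C → ℂ) y * conj ((χ : C → ℂ) s) =
      ∑ i ∈ Finset.univ.filter (InB (M := M) e), phi hM i y *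
        (tz M (χ : C → ℂ) (pj i) * conj ((χ : C → ℂ) s)) := by
    intro χ hχ
    have h2 := irr_expand hM he (irr_isClassFunction χ) hy
    rw [blockPart_mem (mem_Bfin.1 hχ)] at h2
    conv_lhs => rw [h2]
    rw [Finset.sum_mul]
    exact Finset.sum_congr rfl fun i _ => by ring
  rw [Finset.sum_congr rfl h1, Finset.sum_comm]
  refine Finset.sum_congr rfl fun i hi => ?_
  rw [← Finset.mul_sum]
  congr 1
  rw [Pe, map_sum]
  have h3 : ∀ χ : IrrCharacter C, conj (tz M (χ : C → ℂ) (pj i) * (χ : C → ℂ) s) =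
      tz M (χ : C → ℂ) (pj i) * conj ((χ : C → ℂ) s) := fun χ => by
    rw [map_mul, tz_conj (irr_isCharacter χ) (prim_pj i).idem]
  rw [Finset.sum_congr rfl fun χ _ => h3 χ]
  refine Finset.sum_subset (Finset.subset_univ _) fun χ _ hχ => ?_
  rw [tz_pj_eq_zero' he (fun h => hχ (mem_Bfin.2 h)) (Finset.mem_filter.1 hi).2, zero_mul]

theorem orderOf_aut (α : C ≃* C) (c : C) : orderOf (α c) = orderOf c := α.orderOf_eq c

open Classical in
/-- nonnegativity of the trace of an automorphism on a block -/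
theorem sum_blockKernel_aut (hM : IsPModular p M) {e : Set (IrrCharacter C)} (he : IsPBlock M e)
    (α : C ≃* C) :
    ∃ n : ℕ, ∑ s : C, (if p ∣ orderOf s then 0 else blockKernel e (α s) s) =
      (Nat.card C : ℂ) * n := by
  choose n hn using tz_phi_aut (C := C) hM α
  refine ⟨∑ i ∈ Finset.univ.filter (InB (M := M) e), n i, ?_⟩
  have h1 : ∀ s : C, (if p ∣ orderOf s then 0 else blockKernel e (α s) s) =
      ∑ i ∈ Finset.univ.filter (InB (M := M) e), phi hM i (α s) * conj (Pe (pj i) s) := by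
    intro s
    by_cases hs : p ∣ orderOf s
    · rw [if_pos hs]
      symm
      refine Finset.sum_eq_zero fun i _ => ?_
      rw [Pe_sing hM (prim_pj i).idem hs, map_zero, mul_zero]
    · rw [if_neg hs]
      exact kernel_eq hM he (by rwa [orderOf_aut]) s
  rw [Finset.sum_congr rfl fun s _ => h1 s, Finset.sum_comm]
  push_cast
  rw [Finset.mul_sum]
  refine Finset.sum_congr rfl fun i _ => ?_
  rw [← hn, ← classInner_Pe (cf_aut (phi_cf hM i) α) (prim_pj i).idem, classInner, ← mul_assoc,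
    mul_inv_cancel₀ (by exact_mod_cast Nat.card_pos.ne'), one_mul]

end A

section B

variable {p : ℕ} [hp : Fact p.Prime] {M : Ideal AlgInt}
  {G : Type u} [Group G] [Fintype G]

open Classical in
/-- values of the characters of a block on the section of a `p`-element -/
theorem sum_section_block (hM : IsPModular p M) {B : Set (IrrCharacter G)} (hB : IsPBlock M B)
    {x : G} (hx : ∃ k : ℕ, orderOf x = p ^ k) {C : Subgroup G} [Fintype C]
    (hC : C = Subgroup.centralizer ({x} : Set G)) {y y' : C} (hy : ¬ p ∣ orderOf y)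
    (hy' : ¬ p ∣ orderOf y') :
    ∑ ψ ∈ Bfin B, (ψ : G → ℂ) (x * (y : G)) * conj ((ψ : G → ℂ) (x * (y' : G))) =
      ∑ e ∈ (pbl M C).filter (fun e => IsInducedBlock M C e B), blockKernel e y y' := by
  haveI := isPrime_of_isPModular hM
  haveI := Fintype.ofFinite (IrrCharacter G)
  have hcomm : ∀ c ∈ C, x * c = c * x := fun c hc =>
    (Subgroup.mem_centralizer_singleton_iff.mp (hC.le hc)).symm
  have h1 : ∀ (ψ : IrrCharacter G) (s : C), ¬ p ∣ orderOf s → (ψ : G → ℂ) (x * (s : G)) =
      ∑ e ∈ pbl M C, dpart p x e (ψ : G → ℂ) s := by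
    intro ψ s hs
    have := sum_blockPart (M := M) (shiftC_isClassFunction hcomm (irr_isClassFunction ψ)) s
    change shiftC C x ψ s = _
    rw [← this]
    refine Finset.sum_congr rfl fun e' _ => ?_
    rw [dpart, pRegularPart_apply_of_reg hs]
  have h2 : ∀ ψ ∈ Bfin B, ∀ e ∈ pbl M C, ¬ IsInducedBlock M C e B →
      dpart p x e (ψ : G → ℂ) = 0 := by
    intro ψ hψ e he hne
    obtain ⟨B₁, hB₁⟩ := exists_induced hM hx hC (mem_pbl.1 he)
    refine dpart_eq_zero_of_notMem hM hx hC hB₁ fun h => hne ?_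
    have := isPBlock_eq_of_mem hB₁.2.1 hB h (mem_Bfin.1 hψ)
    rwa [this] at hB₁
  have h3 : ∀ ψ ∈ Bfin B, (ψ : G → ℂ) (x * (y : G)) * conj ((ψ : G → ℂ) (x * (y' : G))) =
      ∑ e ∈ (pbl M C).filter (fun e => IsInducedBlock M C e B), ∑ e' ∈ pbl M C,
        dpart p x e (ψ : G → ℂ) y * conj (dpart p x e' (ψ : G → ℂ) y') := by
    intro ψ hψ
    rw [h1 ψ y hy, h1 ψ y' hy', map_sum, Finset.sum_mul_sum]
    symm
    refine Finset.sum_subset (Finset.filter_subset _ _) fun e he hne => ?_
    have h4 : ¬ IsInducedBlock M C e B := fun h => hne (Finset.mem_filter.2 ⟨he, h⟩)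
    rw [h2 ψ hψ e he h4]
    simp
  rw [Finset.sum_congr rfl h3, Finset.sum_comm]
  refine Finset.sum_congr rfl fun e he => ?_
  have he1 := (Finset.mem_filter.1 he).1
  have he2 := (Finset.mem_filter.1 he).2
  rw [Finset.sum_comm]
  have h5 : ∀ e' ∈ pbl M C, ∑ ψ ∈ Bfin B, dpart p x e (ψ : G → ℂ) y *
      conj (dpart p x e' (ψ : G → ℂ) y') = if e = e' then blockKernel e y y' else 0 := by
    intro e' he'
    rw [← sum_dpart_mul_conj hM hx hC (mem_pbl.1 he1) (mem_pbl.1 he') hy hy']
    refine Finset.sum_subset (Finset.subset_univ _) fun ψ _ hψ => ?_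
    rw [dpart_eq_zero_of_notMem hM hx hC he2 (fun h => hψ (mem_Bfin.mpr h))]
    simp
  rw [Finset.sum_congr rfl h5, Finset.sum_ite_eq, if_pos he1]

theorem exists_aut {v u : G} {k : ℕ} (huv : u * v * u⁻¹ = v ^ k) {C : Subgroup G}
    (hC : C = Subgroup.centralizer ({v} : Set G)) :
    ∃ α : C ≃* C, ∀ s : C, ((α s : C) : G) = u⁻¹ * s * u := by
  have key : ∀ s : C, u⁻¹ * (s : G) * u ∈ C := by
    intro s
    have hs := Subgroup.mem_centralizer_singleton_iff.mp (hC.le s.2)
    refine hC.ge (Subgroup.mem_centralizer_singleton_iff.2 ?_)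
    have h1 : (s : G) * v ^ k = v ^ k * s := ((show Commute (s : G) v from hs).pow_right k).eq
    rw [← huv] at h1
    calc u⁻¹ * (s : G) * u * v = u⁻¹ * ((s : G) * (u * v * u⁻¹)) * u := by group
      _ = u⁻¹ * ((u * v * u⁻¹) * s) * u := by rw [h1]
      _ = v * (u⁻¹ * (s : G) * u) := by group
  let f : C →* C :=
    { toFun := fun s => ⟨u⁻¹ * (s : G) * u, key s⟩
      map_one' := by apply Subtype.ext; simp
      map_mul' := by
        intro a b
        apply Subtype.ext
        push_cast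
        group }
  have hf : Function.Injective f := by
    intro a b h
    have h1 : u⁻¹ * (a : G) * u = u⁻¹ * (b : G) * u := congrArg Subtype.val h
    apply Subtype.ext
    exact mul_left_cancel (mul_right_cancel h1)
  exact ⟨MulEquiv.ofBijective f ((Finite.injective_iff_bijective).1 hf), fun s => rfl⟩

open Classical in
/-- the contribution of the section of `v` to the trace -/
theorem section_nonneg (hM : IsPModular p M) {B : Set (IrrCharacter G)} (hB : IsPBlock M B)
    {k : ℕ} (hk : ∀ s : G, ¬ p ∣ orderOf s → s ^ k = s)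
    {v : G} (hv : ∃ l : ℕ, orderOf v = p ^ l) {C : Subgroup G} [Fintype C]
    (hC : C = Subgroup.centralizer ({v} : Set G)) :
    ∃ n : ℕ, ∑ s : C, (if p ∣ orderOf s then 0 else
      ∑ ψ ∈ Bfin B, (ψ : G → ℂ) ((v * (s : G)) ^ k) * conj ((ψ : G → ℂ) (v * (s : G)))) = n := by
  haveI := isPrime_of_isPModular hM
  have hcomm : ∀ s : C, Commute v (s : G) := fun s =>
    (Subgroup.mem_centralizer_singleton_iff.mp (hC.le s.2)).symm
  have hpow : ∀ s : C, ¬ p ∣ orderOf s → (v * (s : G)) ^ k = v ^ k * s := by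
    intro s hs
    rw [(hcomm s).mul_pow, hk (s : G) (by rwa [Subgroup.orderOf_coe])]
  by_cases hc : IsConj v (v ^ k)
  · obtain ⟨u, hu⟩ := isConj_iff.1 hc
    obtain ⟨α, hα⟩ := exists_aut hu hC
    choose! n hn using fun (e : Set (IrrCharacter C)) (he : IsPBlock M e) =>
      sum_blockKernel_aut hM he α
    refine ⟨∑ e ∈ (pbl M C).filter (fun e => IsInducedBlock M C e B), Nat.card C * n e, ?_⟩
    have h1 : ∀ s : C, (if p ∣ orderOf s then 0 else
        ∑ ψ ∈ Bfin B, (ψ : G → ℂ) ((v * (s : G)) ^ k) * conj ((ψ : G → ℂ) (v * (s : G)))) =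
        ∑ e ∈ (pbl M C).filter (fun e => IsInducedBlock M C e B),
          (if p ∣ orderOf s then 0 else blockKernel e (α s) s) := by
      intro s
      by_cases hs : p ∣ orderOf s
      · simp [hs]
      · simp only [if_neg hs]
        rw [← sum_section_block hM hB hv hC (y := α s) (y' := s) (by rwa [orderOf_aut]) hs]
        refine Finset.sum_congr rfl fun ψ _ => ?_
        congr 1
        rw [hpow s hs, ← hu, hα]
        have h2 : u * v * u⁻¹ * (s : G) = u * (v * (u⁻¹ * s * u)) * u⁻¹ := by group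
        rw [h2]
        exact irr_isClassFunction ψ _ _
    rw [Finset.sum_congr rfl fun s _ => h1 s, Finset.sum_comm]
    push_cast
    refine Finset.sum_congr rfl fun e he => ?_
    exact hn e (mem_pbl.1 (Finset.mem_filter.1 he).1)
  · refine ⟨0, ?_⟩
    rw [Nat.cast_zero]
    refine Finset.sum_eq_zero fun s _ => ?_
    by_cases hs : p ∣ orderOf s
    · rw [if_pos hs]
    · rw [if_neg hs]
      have h1 : IsPPart p (v * (s : G)) v := ⟨s, rfl, hcomm s, hv, by rwa [Subgroup.orderOf_coe]⟩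
      have h2 : IsPPart p ((v * (s : G)) ^ k) (v ^ k) := by
        refine ⟨s, (hpow s hs).symm, (hcomm s).pow_left k, ?_, by rwa [Subgroup.orderOf_coe]⟩
        obtain ⟨l, hl⟩ := hv
        have h3 : orderOf (v ^ k) ∣ p ^ l := by rw [← hl]; exact orderOf_pow_dvd k
        obtain ⟨j, -, hj⟩ := (Nat.dvd_prime_pow hp.out).1 h3
        exact ⟨j, hj⟩
      have h4 := block_orthogonality hM hB h2 h1 (fun h => hc h.symm)
      rwa [finsum_mem_eq_Bfin] at h4

open Classical in
/-- **The trace of a power map on a block is at least `l(B)`.** -/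
theorem blockRank_le (hM : IsPModular p M) {B : Set (IrrCharacter G)} (hB : IsPBlock M B)
    {k : ℕ} (hk : ∀ s : G, ¬ p ∣ orderOf s → s ^ k = s) (hcop : k.Coprime (Nat.card G)) :
    blockRank p B ≤ ((Bfin B).filter (fun χ : IrrCharacter G =>
      ∀ g : G, (χ : G → ℂ) (g ^ k) = (χ : G → ℂ) g)).card := by
  haveI := isPrime_of_isPModular hM
  -- the sum over all elements
  have hsum : ∑ g : G, ∑ ψ ∈ Bfin B, (ψ : G → ℂ) (g ^ k) * conj ((ψ : G → ℂ) g) =
      (Nat.card G : ℂ) * (((Bfin B).filter (fun χ : IrrCharacter G =>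
        ∀ g : G, (χ : G → ℂ) (g ^ k) = (χ : G → ℂ) g)).card : ℂ) := by
    rw [Finset.sum_comm, Finset.card_filter]
    push_cast
    rw [Finset.mul_sum]
    refine Finset.sum_congr rfl fun ψ _ => ?_
    have hirr := Cfsg.Agent.Char.isIrrCharacter_pow ψ.2 hcop
    have h1 : ∑ g : G, (ψ : G → ℂ) (g ^ k) * conj ((ψ : G → ℂ) g) =
        (Nat.card G : ℂ) * classInner ((⟨_, hirr⟩ : IrrCharacter G) : G → ℂ) (ψ : G → ℂ) := by
      rw [classInner, ← mul_assoc, mul_inv_cancel₀ (by exact_mod_cast Nat.card_pos.ne'), one_mul]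
    rw [h1, classInner_irr]
    congr 1
    by_cases h : ∀ g : G, (ψ : G → ℂ) (g ^ k) = (ψ : G → ℂ) g
    · rw [if_pos h, if_pos]
      apply Subtype.ext
      funext g
      exact h g
    · rw [if_neg h, if_neg]
      intro h2
      apply h
      intro g
      exact congrFun (congrArg Subtype.val h2) g
  rw [sum_sections' (p := p)] at hsum
  -- the sections
  have hsec : ∀ v : G, (∃ l : ℕ, orderOf v = p ^ l) → ∃ n : ℕ,
      ∑ s : Subgroup.centralizer (Subgroup.zpowers v : Set G), (if p ∣ orderOf s then 0 else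
      ∑ ψ ∈ Bfin B, (ψ : G → ℂ) ((v * (s : G)) ^ k) * conj ((ψ : G → ℂ) (v * (s : G)))) = n := by
    intro v hv
    exact section_nonneg hM hB hk hv (centralizer_zpowers_eq v)
  choose! n hn using hsec
  have h1mem : (1 : G) ∈ Finset.univ.filter (fun v : G => ∃ l : ℕ, orderOf v = p ^ l) := by
    rw [Finset.mem_filter]
    exact ⟨Finset.mem_univ _, 0, by simp⟩
  -- the section of `1`
  have hone : ∑ s : Subgroup.centralizer (Subgroup.zpowers (1 : G) : Set G),
      (if p ∣ orderOf s then 0 else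
      ∑ ψ ∈ Bfin B, (ψ : G → ℂ) (((1 : G) * (s : G)) ^ k) * conj ((ψ : G → ℂ) ((1 : G) * (s : G)))) =
      (Nat.card G : ℂ) * (blockRank p B : ℂ) := by
    rw [← sum_blockKernel_self hM hB]
    have htop : Subgroup.centralizer (Subgroup.zpowers (1 : G) : Set G) = ⊤ := by
      rw [Subgroup.zpowers_one_eq_bot, eq_top_iff]
      intro g _
      rw [Subgroup.mem_centralizer_iff]
      intro h hh
      have : h = 1 := by simpa using hh
      rw [this]; simp
    refine Fintype.sum_bijective (fun s : Subgroup.centralizer (Subgroup.zpowers (1 : G) : Set G) =>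
      (s : G)) ⟨Subtype.val_injective, fun g => ⟨⟨g, by rw [htop]; trivial⟩, rfl⟩⟩ _ _ fun s => ?_
    rw [Subgroup.orderOf_coe]
    by_cases hs : p ∣ orderOf s
    · rw [if_pos hs, if_pos hs]
    · rw [if_neg hs, if_neg hs, blockKernel_eq_Bfin, one_mul, hk _ (by rwa [Subgroup.orderOf_coe])]
  rw [← Finset.add_sum_erase _ _ h1mem, hone] at hsum
  have h2 : ∑ v ∈ (Finset.univ.filter (fun v : G => ∃ l : ℕ, orderOf v = p ^ l)).erase 1,
      ∑ s : Subgroup.centralizer (Subgroup.zpowers v : Set G), (if p ∣ orderOf s then 0 else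
      ∑ ψ ∈ Bfin B, (ψ : G → ℂ) ((v * (s : G)) ^ k) * conj ((ψ : G → ℂ) (v * (s : G)))) =
      ((∑ v ∈ (Finset.univ.filter (fun v : G => ∃ l : ℕ, orderOf v = p ^ l)).erase 1, n v : ℕ) : ℂ) := by
    push_cast
    refine Finset.sum_congr rfl fun v hv => ?_
    exact hn v (Finset.mem_filter.1 (Finset.mem_of_mem_erase hv)).2
  rw [h2] at hsum
  have h3 : Nat.card G * blockRank p B + ∑ v ∈ (Finset.univ.filter
      (fun v : G => ∃ l : ℕ, orderOf v = p ^ l)).erase 1, n v =
      Nat.card G * ((Bfin B).filter (fun χ : IrrCharacter G =>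
        ∀ g : G, (χ : G → ℂ) (g ^ k) = (χ : G → ℂ) g)).card := by
    exact_mod_cast hsum
  have h4 : Nat.card G * blockRank p B ≤ Nat.card G * ((Bfin B).filter (fun χ : IrrCharacter G =>
        ∀ g : G, (χ : G → ℂ) (g ^ k) = (χ : G → ℂ) g)).card := by omega
  exact Nat.le_of_mul_le_mul_left h4 Nat.card_pos

end B

end Cfsg.Agent.H4.PRat
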