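import Cfsg.Agent.H4.AbelLoc
import Cfsg.Agent.H4.MajorEx
import Cfsg.Agent.BlkInd.ModInd
import Cfsg.Prelude.Def_BlockLocal

/-!
# Perfect isometries for blocks with Klein four defect groups (owner: helper4)
-/

set_option autoImplicit false
set_option linter.style.haveILetI false
set_option linter.unusedSectionVars false

namespace Cfsg.Agent.H4

open scoped ComplexConjugate
open Cfsg Cfsg.Agent.CharBase Cfsg.Agent.Blk Cfsg.Agent.BlkInd Cfsg.Agent.BlkC Cfsg.Agent.BlkF

universe u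

section Vanish

variable {G : Type u} [Group G] [Fintype G] {p : ℕ} [hp : Fact p.Prime] {M : Ideal AlgInt}

/-- a local combination of characters vanishing on `p`-singular elements is divisible by the
orders of centralizers -/
theorem mlr_div_of_vanish (hM : IsPModular p M) {S : Finset (IrrCharacter G)}
    {a : IrrCharacter G → ℂ} (ha : ∀ χ ∈ S, MemLocalRing M (a χ)) {f : G → ℂ}
    (hf : ∀ g, f g = ∑ χ ∈ S, a χ * (χ : G → ℂ) g)
    (hs : ∀ g, p ∣ orderOf g → f g = 0) {g : G} (hg : ¬ p ∣ orderOf g) :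
    MemLocalRing M (f g / (Nat.card (Subgroup.centralizer ({g} : Set G)) : ℂ)) := by
  classical
  haveI := isPrime_of_isPModular hM
  obtain ⟨P₀⟩ : Nonempty (Sylow p (Subgroup.centralizer ({g} : Set G))) := inferInstance
  obtain ⟨hP1, hP2, m, hm, hPm⟩ := sylow_centralizer_spec P₀
  set P := (P₀ : Subgroup (Subgroup.centralizer ({g} : Set G))).map
      (Subgroup.centralizer ({g} : Set G)).subtype with hPdef
  haveI : Fintype P := Fintype.ofFinite _
  have h1 : ∑ u : P, f (g * (u : G)) = f g := by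
    rw [Finset.sum_eq_single (1 : P)]
    · simp
    · intro u _ hu
      apply hs
      obtain ⟨k, hk⟩ := (IsPGroup.iff_orderOf.mp hP1) u
      have hk' : orderOf (u : G) = p ^ k := by rw [Subgroup.orderOf_coe, hk]
      exact dvd_orderOf_mul (hP2 u u.2) hg (fun h => hu (Subtype.ext h)) hk'
    · intro h; exact absurd (Finset.mem_univ _) h
  have h2 : (Nat.card P : ℂ)⁻¹ * f g = ∑ χ ∈ S, a χ * avgVal P g (χ : G → ℂ) := by
    rw [← h1]
    simp only [hf]
    rw [Finset.sum_comm, Finset.mul_sum]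
    refine Finset.sum_congr rfl fun χ _ => ?_
    unfold avgVal
    rw [← Finset.mul_sum]
    ring
  have h3 : MemLocalRing M ((Nat.card P : ℂ)⁻¹ * f g) := by
    rw [h2]
    refine mlr_sum _ _ fun χ hχ => mlr_mul (ha χ hχ) (mlr_of_isIntegral ?_)
    exact isIntegral_avg P hP2 (irr_isCharacter χ)
  have h4 : f g / (Nat.card (Subgroup.centralizer ({g} : Set G)) : ℂ) =
      (Nat.card P : ℂ)⁻¹ * f g * (m : ℂ)⁻¹ := by
    rw [← hPm]
    push_cast
    rw [div_eq_mul_inv, mul_inv]
    ring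
  rw [h4]
  exact mlr_mul h3 (mlr_natCast_inv hM hm)

/-- values of characters of a block of defect `d` -/
theorem mlr_defect_div (hM : IsPModular p M) {b : Set (IrrCharacter G)} {θ : IrrCharacter G}
    (hθ : θ ∈ b) (y : G) :
    MemLocalRing M ((p : ℂ) ^ blockDefect p b * (θ : G → ℂ) y /
      (Nat.card (Subgroup.centralizer ({y} : Set G)) : ℂ)) := by
  haveI := isPrime_of_isPModular hM
  have hGc : (Nat.card G : ℂ) ≠ 0 := by exact_mod_cast Nat.card_pos.ne'
  have hCc : (Nat.card (Subgroup.centralizer ({y} : Set G)) : ℂ) ≠ 0 := by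
    exact_mod_cast Nat.card_pos.ne'
  have h1 : (θ : G → ℂ) 1 ≠ 0 := irr_one_ne_zero θ.2
  set n := charDegree (θ : G → ℂ) with hn
  have hn1 : (θ : G → ℂ) 1 = (n : ℂ) := charDegree_spec θ
  have hn0 : n ≠ 0 := (charDegree_pos θ).ne'
  have hG0 : Nat.card G ≠ 0 := Nat.card_pos.ne'
  set n' := ordCompl[p] n with hn'
  set m' := ordCompl[p] (Nat.card G) with hm'
  have e1 : p ^ (nu p θ) * n' = n := Nat.ordProj_mul_ordCompl_eq_self n p
  have e2 : p ^ ((Nat.card G).factorization p) * m' = Nat.card G :=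
    Nat.ordProj_mul_ordCompl_eq_self _ p
  have e3 := nu_eq_height_add (p := p) hθ
  have e4 := defect_add_nuMin (p := p) ⟨θ, hθ⟩
  have hm0 : ¬ p ∣ m' := Nat.not_dvd_ordCompl hp.out hG0
  have key : (p : ℂ) ^ blockDefect p b * (n : ℂ) / (Nat.card G : ℂ) =
      (p : ℂ) ^ blockHeight p b (θ : G → ℂ) * (n' : ℂ) * (m' : ℂ)⁻¹ := by
    have hm'c : (m' : ℂ) ≠ 0 := by
      have : m' ≠ 0 := fun h => hm0 (by rw [h]; exact dvd_zero p)
      exact_mod_cast this
    rw [div_eq_iff hGc, ← e1, ← e2, e3, ← e4]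
    push_cast
    rw [pow_add, pow_add]
    field_simp
  have hidx : ((Subgroup.centralizer ({y} : Set G)).index : ℂ) =
      (Nat.card G : ℂ) / (Nat.card (Subgroup.centralizer ({y} : Set G)) : ℂ) := by
    rw [eq_div_iff hCc]
    have := Subgroup.card_mul_index (Subgroup.centralizer ({y} : Set G))
    rw [← this]; push_cast; ring
  have h5 : (p : ℂ) ^ blockDefect p b * (θ : G → ℂ) y /
      (Nat.card (Subgroup.centralizer ({y} : Set G)) : ℂ) = centralChar (θ : G → ℂ) y *
        ((p : ℂ) ^ blockDefect p b * (n : ℂ) / (Nat.card G : ℂ)) := by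
    unfold centralChar
    rw [hidx, hn1]
    have hnc : (n : ℂ) ≠ 0 := by exact_mod_cast hn0
    field_simp
  rw [h5, key]
  exact mlr_mul (Blk.mlr_centralChar θ y) (mlr_mul (mlr_mul (mlr_pow (mlr_natCast p) _)
    (mlr_natCast n')) (mlr_natCast_inv hM hm0))

end Vanish

section Cross

variable {G : Type u} [Group G] [Fintype G] {p : ℕ} [hp : Fact p.Prime] {M : Ideal AlgInt}
variable {B : Set (IrrCharacter G)}

/-- orthogonality between a section and an element outside -/
theorem cross_reg (hM : IsPModular p M) (hB : IsPBlock M B) {x : G} {C : Subgroup G} [Fintype C]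
    (hx : ∃ k : ℕ, orderOf x = p ^ k) (hC : C = Subgroup.centralizer ({x} : Set G))
    {e : Set (IrrCharacter C)} (he : IsPBlock M e) {g v : G} (hg : IsPPart p g v)
    (hxv : ¬ IsConj x v) (y : C) :
    ∑ χ ∈ Bfin B, dpart p x e (χ : G → ℂ) y * conj ((χ : G → ℂ) g) = 0 := by
  classical
  by_cases hy : p ∣ orderOf y
  · refine Finset.sum_eq_zero fun χ _ => ?_
    rw [dpart_of_sing _ hy, zero_mul]
  have hcomm : ∀ k : C, (k : G) * x = x * k := fun k =>
    Subgroup.mem_centralizer_singleton_iff.mp (hC.le k.2)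
  have h1 : ∀ c : C, ¬ p ∣ orderOf c →
      ∑ χ ∈ Bfin B, (χ : G → ℂ) (x * (c : G)) * conj ((χ : G → ℂ) g) = 0 := by
    intro c hc
    have h := block_orthogonality hM hB
      (g := x * (c : G)) (h := g) (x := x) (y := v)
      ⟨c, rfl, (hcomm c).symm, hx, by rw [Subgroup.orderOf_coe]; exact hc⟩ hg hxv
    rwa [finsum_mem_eq_Bfin] at h
  simp only [dpart_eq hM he _ hy]
  simp only [Finset.mul_sum, Finset.sum_mul]
  rw [Finset.sum_comm]
  refine Finset.sum_eq_zero fun c _ => ?_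
  by_cases hc : p ∣ orderOf c
  · refine Finset.sum_eq_zero fun χ _ => ?_
    rw [if_pos hc, mul_zero, zero_mul]
  · simp only [if_neg hc]
    have h2 := h1 c hc
    calc ∑ χ ∈ Bfin B, (Nat.card C : ℂ)⁻¹ * (blockKernel e y c * (χ : G → ℂ) (x * (c : G))) *
          conj ((χ : G → ℂ) g)
        = (Nat.card C : ℂ)⁻¹ * blockKernel e y c *
          ∑ χ ∈ Bfin B, (χ : G → ℂ) (x * (c : G)) * conj ((χ : G → ℂ) g) := by
          rw [Finset.mul_sum]
          exact Finset.sum_congr rfl fun χ _ => by ring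
      _ = 0 := by rw [h2, mul_zero]

/-- orthogonality between different sections -/
theorem cross_sec (hM : IsPModular p M) (hB : IsPBlock M B) {x x' : G} {C C' : Subgroup G}
    [Fintype C] [Fintype C']
    (hx : ∃ k : ℕ, orderOf x = p ^ k) (hC : C = Subgroup.centralizer ({x} : Set G))
    (hx' : ∃ k : ℕ, orderOf x' = p ^ k) (hC' : C' = Subgroup.centralizer ({x'} : Set G))
    {e : Set (IrrCharacter C)} (he : IsPBlock M e) {e' : Set (IrrCharacter C')}
    (he' : IsPBlock M e') (hxx : ¬ IsConj x x') (y : C) (y' : C') :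
    ∑ χ ∈ Bfin B, dpart p x e (χ : G → ℂ) y * conj (dpart p x' e' (χ : G → ℂ) y') = 0 := by
  classical
  by_cases hy : p ∣ orderOf y'
  · refine Finset.sum_eq_zero fun χ _ => ?_
    rw [dpart_of_sing _ hy, map_zero, mul_zero]
  have hcomm : ∀ k : C', (k : G) * x' = x' * k := fun k =>
    Subgroup.mem_centralizer_singleton_iff.mp (hC'.le k.2)
  simp only [dpart_eq (x := x') hM he' _ hy, map_mul, map_sum, Finset.mul_sum]
  rw [Finset.sum_comm]
  refine Finset.sum_eq_zero fun c _ => ?_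
  by_cases hc : p ∣ orderOf c
  · refine Finset.sum_eq_zero fun χ _ => ?_
    rw [if_pos hc, map_zero, mul_zero, mul_zero]
  · simp only [if_neg hc, map_mul]
    have h2 := cross_reg hM hB hx hC he (g := x' * (c : G)) (v := x')
      ⟨c, rfl, (hcomm c).symm, hx', by rw [Subgroup.orderOf_coe]; exact hc⟩ hxx y
    calc ∑ χ ∈ Bfin B, dpart p x e (χ : G → ℂ) y * (conj ((Nat.card C' : ℂ)⁻¹) *
          (conj (blockKernel e' y' c) * conj ((χ : G → ℂ) (x' * (c : G)))))
        = conj ((Nat.card C' : ℂ)⁻¹) * conj (blockKernel e' y' c) *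
          ∑ χ ∈ Bfin B, dpart p x e (χ : G → ℂ) y * conj ((χ : G → ℂ) (x' * (c : G))) := by
          rw [Finset.mul_sum]
          exact Finset.sum_congr rfl fun χ _ => by ring
      _ = 0 := by rw [h2, mul_zero]

theorem card_cent_conj (g h : G) : Nat.card (Subgroup.centralizer ({h * g * h⁻¹} : Set G)) =
    Nat.card (Subgroup.centralizer ({g} : Set G)) := by
  refine (Nat.card_congr ((MulAut.conj h).toEquiv.subtypeEquiv fun y => ?_)).symm
  change y ∈ Subgroup.centralizer ({g} : Set G) ↔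
    h * y * h⁻¹ ∈ Subgroup.centralizer ({h * g * h⁻¹} : Set G)
  rw [Subgroup.mem_centralizer_singleton_iff, Subgroup.mem_centralizer_singleton_iff]
  constructor
  · intro hy
    calc h * y * h⁻¹ * (h * g * h⁻¹) = h * (y * g) * h⁻¹ := by group
      _ = h * (g * y) * h⁻¹ := by rw [hy]
      _ = h * g * h⁻¹ * (h * y * h⁻¹) := by group
  · intro hy
    calc y * g = h⁻¹ * (h * y * h⁻¹ * (h * g * h⁻¹)) * h := by group
      _ = h⁻¹ * (h * g * h⁻¹ * (h * y * h⁻¹)) * h := by rw [hy]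
      _ = g * y := by group

end Cross

section Klein

variable {G : Type u} [Group G] [Fintype G] {M : Ideal AlgInt} {B : Set (IrrCharacter G)}
variable [∀ x : G, Fintype (Subgroup.centralizer ({x} : Set G))]

theorem klein_unitData (hM : IsPModular 2 M) (hB : IsPBlock M B) {P : Subgroup G}
    (hPD : IsDefectGroup 2 M B P) (hV : IsKleinFour P) {x : G}
    (hx : ∃ k : ℕ, orderOf x = 2 ^ k) (hx1 : x ≠ 1)
    {b : Set (IrrCharacter (Subgroup.centralizer ({x} : Set G)))}
    (hind : IsInducedBlock M (Subgroup.centralizer ({x} : Set G)) b B) :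
    blockDefect 2 b = 2 ∧ ∃ f, SqData x b B f ∧
      ∀ θ ∈ b, ∀ (χ : IrrCharacter G) (y : Subgroup.centralizer ({x} : Set G)),
        ¬ 2 ∣ orderOf y → dpart 2 x b (χ : G → ℂ) y =
          (f χ : ℂ) * (θ : Subgroup.centralizer ({x} : Set G) → ℂ) y := by
  classical
  haveI := isPrime_of_isPModular hM
  have hPc : Nat.card P = 4 := hV.card_four
  have hexp : ∀ y ∈ P, y ^ 2 = 1 := by
    intro y hy
    have h1 : (⟨y, hy⟩ : P) * ⟨y, hy⟩ = 1 := IsKleinFour.mul_self _
    rw [pow_two]; exact congrArg Subtype.val h1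
  have hab : ∀ x ∈ P, ∀ y ∈ P, x * y = y * x := by
    intro x hx y hy
    have h1 := hexp _ (P.mul_mem hx hy)
    have h2 := hexp x hx
    have h3 := hexp y hy
    calc x * y = x * (x * y) ^ 2 * y := by rw [h1, mul_one]
      _ = x ^ 2 * (y * x) * y ^ 2 := by simp only [pow_two, mul_assoc]
      _ = y * x := by rw [h2, h3, one_mul, mul_one]
  have hd : blockDefect 2 B = 2 := by
    have h1 := card_defectGroup hM hB hPD
    rw [hPc] at h1
    have h2 : 2 ^ 2 = 2 ^ blockDefect 2 B := by rw [← h1]; norm_num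
    exact (Nat.pow_right_injective (le_refl 2) h2).symm
  have hdb := blockDefect_eq_of_comm hM hPD hab hx rfl hind
  have hexpb : ∀ E, IsDefectGroup 2 M b E → ∀ y ∈ E, y * y = 1 := by
    intro E hE y hy
    have h1 := sub_defect_comm hM hPD hab hx rfl hind hE
    have h2 := defect_prop hM hPD hB h1 hexp (y : G) ⟨y, hy, rfl⟩
    rw [pow_two] at h2
    exact Subtype.ext h2
  obtain ⟨D, hD⟩ := exists_defectGroup hM hind.1
  have hxx : x * x = 1 :=
    congrArg Subtype.val (hexpb D hD _ (self_mem_defect hM hx rfl hind.1 hD))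
  have hx2 : orderOf x = 2 := orderOf_eq_prime (by rw [pow_two]; exact hxx) hx1
  have hxC : x ∈ Subgroup.centralizer ({x} : Set G) := by
    rw [Subgroup.mem_centralizer_singleton_iff]
  obtain ⟨-, hU⟩ := klein_central (G := Subgroup.centralizer ({x} : Set G)) hM hind.1
    (hdb.trans hd) hexpb (z := ⟨x, hxC⟩) (mem_center_self rfl)
    (by rw [← hx2, ← Subgroup.orderOf_coe])
  obtain ⟨f, hf, h1⟩ := sqData_of_unit hM hx2 rfl hind hU hdb (heights_zero hM hB (by omega))
  exact ⟨hdb.trans hd, f, hf, h1⟩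

/-- abstract data describing the values of the characters of a block with Klein four defect
group on `2`-singular elements -/
structure KAb {G : Type u} [Group G] [Fintype G] (M : Ideal AlgInt) (B : Set (IrrCharacter G))
    {n : ℕ} (F : Fin n → IrrCharacter G → ℤ) : Prop where
  sq : ∀ i, ∀ χ ∈ B, F i χ * F i χ = 1
  orth : ∀ i j, i ≠ j → ∑ χ ∈ Bfin B, F i χ * F j χ = 0
  reg : ∀ g : G, ¬ 2 ∣ orderOf g → ∀ i, ∑ χ ∈ Bfin B, (F i χ : ℂ) * (χ : G → ℂ) g = 0
  sing : ∀ g : G, 2 ∣ orderOf g → ∃ a : Fin n → ℂ,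
    (∀ χ ∈ B, (χ : G → ℂ) g = ∑ i, (F i χ : ℂ) * a i) ∧
    ∀ i, MemLocalRing M (a i) ∧
      MemLocalRing M (4 * a i / (Nat.card (Subgroup.centralizer ({g} : Set G)) : ℂ))

theorem klein_kab (hM : IsPModular 2 M) (hB : IsPBlock M B) {P : Subgroup G}
    (hPD : IsDefectGroup 2 M B P) (hV : IsKleinFour P) :
    ∃ (n : ℕ) (F : Fin n → IrrCharacter G → ℤ), KAb M B F ∧ (n = 1 ∨ n = 3) ∧
      blockRank 2 B + n = 4 ∧ Nat.card B = 4 := by
  classical
  haveI := isPrime_of_isPModular hM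
  obtain ⟨X, hX⟩ := exists_isNTRep (G := G) 2
  have hd : blockDefect 2 B = 2 := by
    have h1 := card_defectGroup hM hB hPD
    rw [hV.card_four] at h1
    have h2 : 2 ^ 2 = 2 ^ blockDefect 2 B := by rw [← h1]; norm_num
    exact (Nat.pow_right_injective (le_refl 2) h2).symm
  have hdat : ∀ s : (Σ x : G, Set (IrrCharacter (Subgroup.centralizer ({x} : Set G)))),
      ∃ (f : IrrCharacter G → ℤ) (θ : IrrCharacter (Subgroup.centralizer ({s.1} : Set G))),
        s ∈ subs M X B → blockDefect 2 s.2 = 2 ∧ SqData s.1 s.2 B f ∧ θ ∈ s.2 ∧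
        ∀ (χ : IrrCharacter G) (y : Subgroup.centralizer ({s.1} : Set G)),
        ¬ 2 ∣ orderOf y → dpart 2 s.1 s.2 (χ : G → ℂ) y =
          (f χ : ℂ) * (θ : Subgroup.centralizer ({s.1} : Set G) → ℂ) y := by
    intro s
    by_cases hs : s ∈ subs M X B
    · rw [subs, Finset.mem_sigma] at hs
      obtain ⟨h1, f, h2, h3⟩ := klein_unitData hM hB hPD hV (hX.pel _ hs.1) (hX.ne_one _ hs.1)
        (mem_indB.mp hs.2)
      obtain ⟨θ, hθ⟩ := block_nonempty (mem_indB.mp hs.2).1
      exact ⟨f, θ, fun _ => ⟨h1, h2, hθ, h3 θ hθ⟩⟩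
    · exact ⟨0, oneIrr _, fun h => absurd h hs⟩
  choose f θ hfθ using hdat
  obtain ⟨hk, hn, hl, hsq⟩ := core_two hM hB hd hX fun x hx b hb =>
    klein_sqData hM hB hPD hV (hX.pel _ hx) (hX.ne_one _ hx) (mem_indB.mp hb)
  set S := subs M X B with hS
  set e : Fin S.card ≃ S := S.equivFin.symm with he
  have hmem : ∀ s ∈ S, s.1 ∈ X ∧ IsInducedBlock M (Subgroup.centralizer ({s.1} : Set G)) s.2 B := by
    intro s hs
    rw [hS, subs, Finset.mem_sigma] at hs
    exact ⟨hs.1, mem_indB.mp hs.2⟩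
  have hθ1 : ∀ s ∈ S, (θ s : Subgroup.centralizer ({s.1} : Set G) → ℂ) 1 ≠ 0 := fun s _ =>
    irr_one_ne_zero (θ s).2
  have hd1 : ∀ s ∈ S, ∀ χ : IrrCharacter G, dpart 2 s.1 s.2 (χ : G → ℂ) 1 =
      (f s χ : ℂ) * (θ s : Subgroup.centralizer ({s.1} : Set G) → ℂ) 1 := fun s hs χ =>
    (hfθ s hs).2.2.2 χ 1 (by rw [orderOf_one]; norm_num)
  have horth : ∀ s ∈ S, ∀ t ∈ S, s ≠ t → ∑ χ ∈ Bfin B, f s χ * f t χ = 0 := by
    intro s hs t ht hst
    have key : ∑ χ ∈ Bfin B, dpart 2 s.1 s.2 (χ : G → ℂ) 1 *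
        conj (dpart 2 t.1 t.2 (χ : G → ℂ) 1) = 0 := by
      by_cases hx : s.1 = t.1
      · obtain ⟨x, b⟩ := s
        obtain ⟨x', b'⟩ := t
        simp only at hx
        subst hx
        have hbb : b ≠ b' := fun h => hst (by rw [h])
        haveI := Fintype.ofFinite (IrrCharacter G)
        have h1 := sum_dpart_mul_conj hM (hX.pel _ (hmem _ hs).1) rfl (hmem _ hs).2.1
          (hmem _ ht).2.1 (y := 1) (y' := 1) (by rw [orderOf_one]; norm_num)
          (by rw [orderOf_one]; norm_num)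
        rw [if_neg hbb] at h1
        rw [← h1]
        refine Finset.sum_subset (Finset.subset_univ _) fun χ _ hχ => ?_
        rw [dpart_eq_zero_of_notMem hM (hX.pel _ (hmem _ hs).1) rfl (hmem _ hs).2
          (fun h => hχ (mem_Bfin.mpr h))]
        simp
      · refine cross_sec hM hB (hX.pel _ (hmem _ hs).1) rfl (hX.pel _ (hmem _ ht).1) rfl
          (hmem _ hs).2.1 (hmem _ ht).2.1 (fun hc => hx ?_) 1 1
        obtain ⟨z, -, hz⟩ := hX.rep s.1 (hX.pel _ (hmem _ hs).1) (hX.ne_one _ (hmem _ hs).1)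
        rw [hz s.1 ⟨(hmem _ hs).1, IsConj.refl _⟩, hz t.1 ⟨(hmem _ ht).1, hc⟩]
    have h2 : ((∑ χ ∈ Bfin B, f s χ * f t χ : ℤ) : ℂ) *
        ((θ s : Subgroup.centralizer ({s.1} : Set G) → ℂ) 1 *
          conj ((θ t : Subgroup.centralizer ({t.1} : Set G) → ℂ) 1)) = 0 := by
      rw [← key]
      push_cast
      rw [Finset.sum_mul]
      refine Finset.sum_congr rfl fun χ _ => ?_
      rw [hd1 s hs χ, hd1 t ht χ, map_mul, map_intCast]
      ring
    have h3 : (θ s : Subgroup.centralizer ({s.1} : Set G) → ℂ) 1 *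
          conj ((θ t : Subgroup.centralizer ({t.1} : Set G) → ℂ) 1) ≠ 0 :=
      mul_ne_zero (hθ1 s hs) ((map_ne_zero _).mpr (hθ1 t ht))
    exact_mod_cast (mul_eq_zero.mp h2).resolve_right h3
  refine ⟨S.card, fun i => f (e i), ⟨?_, ?_, ?_, ?_⟩, hn, hl, hk⟩
  · intro i χ hχ
    have h1 := hsq (e i).1.1 (hmem _ (e i).2).1 (e i).1.2 (mem_indB.mpr (hmem _ (e i).2).2)
      (f (e i)) (hfθ _ (e i).2).2.1 χ hχ
    rwa [pow_two] at h1
  · intro i j hij
    exact horth _ (e i).2 _ (e j).2 fun h => hij (e.injective (Subtype.ext h))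
  · intro g hg i
    have h1 := cross_reg hM hB (hX.pel _ (hmem _ (e i).2).1) rfl (hmem _ (e i).2).2.1
      (g := g⁻¹) (v := 1) ⟨g⁻¹, by rw [one_mul], Commute.one_left _, ⟨0, by
        rw [orderOf_one, pow_zero]⟩, by rwa [orderOf_inv]⟩ (fun hc => by
          apply hX.ne_one _ (hmem _ (e i).2).1
          exact isConj_one_left.mp hc) 1
    have h2 : (∑ χ ∈ Bfin B, (f (e i) χ : ℂ) * (χ : G → ℂ) g) *
        (θ (e i) : Subgroup.centralizer ({(e i).1.1} : Set G) → ℂ) 1 = 0 := by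
      rw [← h1, Finset.sum_mul]
      refine Finset.sum_congr rfl fun χ _ => ?_
      rw [hd1 _ (e i).2 χ, irr_inv, Complex.conj_conj]
      ring
    exact (mul_eq_zero.mp h2).resolve_right (hθ1 _ (e i).2)
  · intro g hg
    obtain ⟨u, hu⟩ := exists_isPPart Nat.prime_two g
    have hu' := hu
    obtain ⟨w, hgw, hcw, huk, hw⟩ := hu'
    have hu1 : u ≠ 1 := by
      rintro rfl
      rw [one_mul] at hgw
      rw [hgw] at hw
      exact hw hg
    obtain ⟨x, ⟨hxX, hxu⟩, -⟩ := hX.rep u huk hu1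
    obtain ⟨h, hh⟩ := isConj_iff.mp hxu
    set C := Subgroup.centralizer ({x} : Set G) with hCdef
    have hcC : h * w * h⁻¹ ∈ C := by
      rw [hCdef, Subgroup.mem_centralizer_singleton_iff, ← hh]
      calc h * w * h⁻¹ * (h * u * h⁻¹) = h * (w * u) * h⁻¹ := by group
        _ = h * (u * w) * h⁻¹ := by rw [hcw]
        _ = h * u * h⁻¹ * (h * w * h⁻¹) := by group
    set c : C := ⟨h * w * h⁻¹, hcC⟩ with hc
    have hcreg : ¬ 2 ∣ orderOf c := by
      rw [← Subgroup.orderOf_coe]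
      change ¬ 2 ∣ orderOf (h * w * h⁻¹)
      rw [← orderOf_conj_eq (isConj_iff.mpr ⟨h, rfl⟩)]
      exact hw
    have hgc : h * g * h⁻¹ = x * (c : G) := by
      rw [← hgw, ← hh]
      change h * (u * w) * h⁻¹ = h * u * h⁻¹ * (h * w * h⁻¹)
      group
    set Θ : (s : Σ x : G, Set (IrrCharacter (Subgroup.centralizer ({x} : Set G)))) → G → ℂ :=
      fun s y => if hy : y ∈ Subgroup.centralizer ({s.1} : Set G) then
        (θ s : Subgroup.centralizer ({s.1} : Set G) → ℂ) ⟨y, hy⟩ else 0 with hΘ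
    have hΘint : ∀ s y, IsIntegral ℤ (Θ s y) := by
      intro s y
      simp only [hΘ]
      split_ifs
      · exact irr_isIntegral _ _
      · exact isIntegral_zero
    refine ⟨fun i => if (e i).1.1 = x then Θ (e i) (c : G) else 0, ?_, ?_⟩
    · intro χ hχ
      have h1 : (χ : G → ℂ) g = (χ : G → ℂ) (x * (c : G)) := by
        rw [← hgc, irr_isClassFunction χ]
      rw [h1, ← sum_dpart hM (hX.pel _ hxX) hCdef hB hχ hcreg]
      have h2 : ∑ i, (f (e i) χ : ℂ) * (if (e i).1.1 = x then Θ (e i) (c : G) else 0) =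
          ∑ s ∈ S, (f s χ : ℂ) * (if s.1 = x then Θ s (c : G) else 0) := by
        rw [← Finset.sum_coe_sort S]
        exact Fintype.sum_equiv e _ _ fun i => rfl
      rw [h2, hS, subs, Finset.sum_sigma, Finset.sum_eq_single x]
      · refine Finset.sum_congr rfl fun b hb => ?_
        have hs : (⟨x, b⟩ : Σ x : G, Set (IrrCharacter (Subgroup.centralizer ({x} : Set G)))) ∈ S :=
          Finset.mem_sigma.mpr ⟨hxX, hb⟩
        rw [if_pos rfl]
        have h3 := (hfθ _ hs).2.2.2 χ c hcreg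
        refine h3.trans ?_
        congr 1
        simp only [hΘ]
        rw [dif_pos hcC]
      · intro x' _ hx'
        refine Finset.sum_eq_zero fun b _ => ?_
        rw [if_neg hx', mul_zero]
      · intro h; exact absurd hxX h
    · intro i
      suffices hsuf : ∀ s ∈ S, MemLocalRing M (if s.1 = x then Θ s (c : G) else 0) ∧
          MemLocalRing M (4 * (if s.1 = x then Θ s (c : G) else 0) /
            (Nat.card (Subgroup.centralizer ({g} : Set G)) : ℂ)) from hsuf _ (e i).2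
      rintro ⟨x', b⟩ hs
      by_cases hxx : x' = x
      · subst hxx
        simp only [if_true]
        refine ⟨mlr_of_isIntegral (hΘint _ _), ?_⟩
        have h1 : Nat.card (Subgroup.centralizer ({g} : Set G)) =
            Nat.card (Subgroup.centralizer ({c} : Set (Subgroup.centralizer ({x'} : Set G)))) := by
          rw [← card_cent_conj g h, hgc]
          exact card_centralizer_mul (hX.pel _ hxX) hCdef hcreg
        rw [h1]
        have h2 := mlr_defect_div hM (hfθ _ hs).2.2.1 c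
        rw [(hfθ _ hs).1] at h2
        simp only [hΘ]
        rw [dif_pos hcC]
        rw [show ((2 : ℕ) : ℂ) ^ 2 = 4 by norm_num] at h2
        exact h2
      · simp only [if_neg hxx, mul_zero, zero_div]
        exact ⟨mlr_zero, mlr_zero⟩

end Klein

section Match

theorem three_unique {α : Type*} {S : Finset α} (hS : S.card = 4) {a b c : α → ℤ}
    (ha : ∀ x ∈ S, a x * a x = 1) (hb : ∀ x ∈ S, b x * b x = 1) (hc : ∀ x ∈ S, c x * c x = 1)
    (hab : ∑ x ∈ S, a x * b x = 0) (hac : ∑ x ∈ S, a x * c x = 0)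
    (hbc : ∑ x ∈ S, b x * c x = 0) {δ γ : ℤ} (hδ : δ * δ = 1) (hγ : γ * γ = 1) :
    ∃! x, x ∈ S ∧ a x * b x = δ ∧ a x * c x = γ := by
  classical
  set T := S.filter fun x => a x * b x = δ ∧ a x * c x = γ with hT
  have h1 : ∑ x ∈ S, (1 + δ * (a x * b x)) * (1 + γ * (a x * c x)) = 4 := by
    have h2 : ∀ x ∈ S, (1 + δ * (a x * b x)) * (1 + γ * (a x * c x)) =
        1 + δ * (a x * b x) + γ * (a x * c x) + δ * γ * (b x * c x) := by
      intro x hx
      have := ha x hx
      linear_combination (δ * γ * b x * c x) * this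
    rw [Finset.sum_congr rfl h2, Finset.sum_add_distrib, Finset.sum_add_distrib,
      Finset.sum_add_distrib, ← Finset.mul_sum, ← Finset.mul_sum, ← Finset.mul_sum, hab, hac, hbc]
    simp [hS]
  have h3 : ∑ x ∈ S, (1 + δ * (a x * b x)) * (1 + γ * (a x * c x)) = 4 * (T.card : ℤ) := by
    rw [hT, Finset.card_filter]
    push_cast
    rw [Finset.mul_sum]
    refine Finset.sum_congr rfl fun x hx => ?_
    have e1 : (a x * b x) * (a x * b x) = 1 := by
      have e2 := ha x hx
      have e3 := hb x hx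
      linear_combination (b x * b x) * e2 + e3
    have e4 : (a x * c x) * (a x * c x) = 1 := by
      have e2 := ha x hx
      have e3 := hc x hx
      linear_combination (c x * c x) * e2 + e3
    generalize a x * b x = u at e1
    generalize a x * c x = v at e4
    rcases mul_self_eq_one_iff.mp hδ with rfl | rfl <;>
    rcases mul_self_eq_one_iff.mp hγ with rfl | rfl <;>
    rcases mul_self_eq_one_iff.mp e1 with rfl | rfl <;>
    rcases mul_self_eq_one_iff.mp e4 with rfl | rfl <;> norm_num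
  have h4 : T.card = 1 := by
    rw [h1] at h3
    omega
  obtain ⟨x, hx⟩ := Finset.card_eq_one.mp h4
  have hmem : ∀ y, (y ∈ S ∧ a y * b y = δ ∧ a y * c y = γ) ↔ y = x := by
    intro y
    have h5 := Finset.ext_iff.mp hx y
    rwa [hT, Finset.mem_filter, Finset.mem_singleton] at h5
  exact ⟨x, (hmem x).mpr rfl, fun y hy => (hmem y).mp hy⟩

variable {G H : Type u} [Group G] [Fintype G] [Group H] [Fintype H] {M : Ideal AlgInt}
variable {B : Set (IrrCharacter G)} {c : Set (IrrCharacter H)}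

theorem exists_match {n : ℕ} {F : Fin n → IrrCharacter G → ℤ} {F' : Fin n → IrrCharacter H → ℤ}
    (hF : KAb M B F) (hF' : KAb M c F') (hn : n = 1 ∨ n = 3) (hB : Nat.card B = 4)
    (hc : Nat.card c = 4) : ∃ (I : IrrCharacter H → IrrCharacter G) (ε : IrrCharacter H → ℤ),
      Set.BijOn I c B ∧ (∀ η ∈ c, ε η * ε η = 1) ∧ ∀ i, ∀ η ∈ c, ε η * F i (I η) = F' i η := by
  classical
  have hBc : (Bfin B).card = 4 := by rw [← natCard_eq_Bfin]; exact hB
  have hcc : (Bfin c).card = 4 := by rw [← natCard_eq_Bfin]; exact hc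
  rcases hn with rfl | rfl
  · obtain ⟨e⟩ : Nonempty (c ≃ B) := by
      haveI := Fintype.ofFinite c
      haveI := Fintype.ofFinite B
      refine ⟨Fintype.equivOfCardEq ?_⟩
      rw [← Nat.card_eq_fintype_card, ← Nat.card_eq_fintype_card, hB, hc]
    set I : IrrCharacter H → IrrCharacter G := fun η => if h : η ∈ c then (e ⟨η, h⟩ : IrrCharacter G)
      else oneIrr G with hI
    have hI1 : ∀ (η : IrrCharacter H) (h : η ∈ c), I η = (e ⟨η, h⟩ : IrrCharacter G) := by
      intro η h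
      simp only [hI]
      rw [dif_pos h]
    have hIB : ∀ η ∈ c, I η ∈ B := by
      intro η h
      rw [hI1 η h]
      exact (e ⟨η, h⟩).2
    refine ⟨I, fun η => F 0 (I η) * F' 0 η, ⟨hIB, ?_, ?_⟩, ?_, ?_⟩
    · intro η h η' h' heq
      rw [hI1 η h, hI1 η' h'] at heq
      exact congrArg Subtype.val (e.injective (Subtype.ext heq))
    · intro χ hχ
      refine ⟨(e.symm ⟨χ, hχ⟩ : IrrCharacter H), (e.symm ⟨χ, hχ⟩).2, ?_⟩
      rw [hI1 _ (e.symm ⟨χ, hχ⟩).2]
      simp
    · intro η h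
      have h1 := hF.sq 0 _ (hIB η h)
      have h2 := hF'.sq 0 η h
      linear_combination (F' 0 η * F' 0 η) * h1 + h2
    · intro i η h
      have h1 := hF.sq 0 _ (hIB η h)
      fin_cases i
      simp only [Fin.zero_eta, Fin.isValue]
      linear_combination (F' 0 η) * h1
  · have e01 : (0 : Fin 3) ≠ 1 := by decide
    have e02 : (0 : Fin 3) ≠ 2 := by decide
    have e12 : (1 : Fin 3) ≠ 2 := by decide
    have hB3 : ∀ δ γ : ℤ, δ * δ = 1 → γ * γ = 1 →
        ∃! χ, χ ∈ Bfin B ∧ F 0 χ * F 1 χ = δ ∧ F 0 χ * F 2 χ = γ := fun δ γ hδ hγ =>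
      three_unique hBc (fun χ hχ => hF.sq 0 χ (mem_Bfin.mp hχ))
        (fun χ hχ => hF.sq 1 χ (mem_Bfin.mp hχ)) (fun χ hχ => hF.sq 2 χ (mem_Bfin.mp hχ))
        (hF.orth 0 1 e01) (hF.orth 0 2 e02) (hF.orth 1 2 e12) hδ hγ
    have hc3 : ∀ δ γ : ℤ, δ * δ = 1 → γ * γ = 1 →
        ∃! χ, χ ∈ Bfin c ∧ F' 0 χ * F' 1 χ = δ ∧ F' 0 χ * F' 2 χ = γ := fun δ γ hδ hγ =>
      three_unique hcc (fun χ hχ => hF'.sq 0 χ (mem_Bfin.mp hχ))
        (fun χ hχ => hF'.sq 1 χ (mem_Bfin.mp hχ)) (fun χ hχ => hF'.sq 2 χ (mem_Bfin.mp hχ))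
        (hF'.orth 0 1 e01) (hF'.orth 0 2 e02) (hF'.orth 1 2 e12) hδ hγ
    have hsqB : ∀ χ ∈ B, ∀ i j, (F i χ * F j χ) * (F i χ * F j χ) = 1 := by
      intro χ hχ i j
      have h1 := hF.sq i χ hχ
      have h2 := hF.sq j χ hχ
      linear_combination (F j χ * F j χ) * h1 + h2
    have hsqc : ∀ χ ∈ c, ∀ i j, (F' i χ * F' j χ) * (F' i χ * F' j χ) = 1 := by
      intro χ hχ i j
      have h1 := hF'.sq i χ hχ
      have h2 := hF'.sq j χ hχ
      linear_combination (F' j χ * F' j χ) * h1 + h2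
    have hex : ∀ η : IrrCharacter H, ∃ χ : IrrCharacter G, η ∈ c → (χ ∈ B ∧
        F 0 χ * F 1 χ = F' 0 η * F' 1 η ∧ F 0 χ * F 2 χ = F' 0 η * F' 2 η) := by
      intro η
      by_cases h : η ∈ c
      · obtain ⟨χ, ⟨h1, h2, h3⟩, -⟩ := hB3 _ _ (hsqc η h 0 1) (hsqc η h 0 2)
        exact ⟨χ, fun _ => ⟨mem_Bfin.mp h1, h2, h3⟩⟩
      · exact ⟨oneIrr G, fun h' => absurd h' h⟩
    choose I hI using hex
    refine ⟨I, fun η => F 0 (I η) * F' 0 η, ⟨fun η h => (hI η h).1, ?_, ?_⟩, ?_, ?_⟩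
    · intro η h η' h' heq
      obtain ⟨x, -, hx⟩ := hc3 _ _ (hsqc η h 0 1) (hsqc η h 0 2)
      rw [hx η ⟨mem_Bfin.mpr h, rfl, rfl⟩, hx η' ⟨mem_Bfin.mpr h', ?_, ?_⟩]
      · rw [← (hI η' h').2.1, ← (hI η h).2.1, heq]
      · rw [← (hI η' h').2.2, ← (hI η h).2.2, heq]
    · intro χ hχ
      obtain ⟨η, ⟨h1, h2, h3⟩, -⟩ := hc3 _ _ (hsqB χ hχ 0 1) (hsqB χ hχ 0 2)
      have h1' := mem_Bfin.mp h1
      refine ⟨η, h1', ?_⟩
      obtain ⟨x, -, hx⟩ := hB3 _ _ (hsqB χ hχ 0 1) (hsqB χ hχ 0 2)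
      rw [hx χ ⟨mem_Bfin.mpr hχ, rfl, rfl⟩, hx (I η) ⟨mem_Bfin.mpr (hI η h1').1, ?_, ?_⟩]
      · rw [(hI η h1').2.1, h2]
      · rw [(hI η h1').2.2, h3]
    · intro η h
      have h1 := hF.sq 0 _ (hI η h).1
      have h2 := hF'.sq 0 η h
      linear_combination (F' 0 η * F' 0 η) * h1 + h2
    · intro i η h
      have h1 := hF.sq 0 _ (hI η h).1
      have h2 := hF'.sq 0 η h
      fin_cases i
      · simp only [Fin.zero_eta, Fin.isValue]
        linear_combination (F' 0 η) * h1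
      · simp only [Fin.mk_one, Fin.isValue]
        have h3 := (hI η h).2.1
        linear_combination (F' 0 η) * h3 + (F' 1 η) * h2
      · simp only [Fin.reduceFinMk, Fin.isValue]
        have h3 := (hI η h).2.2
        linear_combination (F' 0 η) * h3 + (F' 2 η) * h2

theorem perfect_of_kab (hM : IsPModular 2 M) {n : ℕ} {F : Fin n → IrrCharacter G → ℤ}
    {F' : Fin n → IrrCharacter H → ℤ} (hF : KAb M B F) (hF' : KAb M c F') (hc : Nat.card c = 4)
    {I : IrrCharacter H → IrrCharacter G} {ε : IrrCharacter H → ℤ} (hI : Set.BijOn I c B)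
    (hε : ∀ η ∈ c, ε η * ε η = 1) (hIε : ∀ i, ∀ η ∈ c, ε η * F i (I η) = F' i η) :
    IsPerfectIsometry 2 M c B I ε := by
  classical
  haveI := isPrime_of_isPModular hM
  have hcc : (Bfin c).card = 4 := by rw [← natCard_eq_Bfin]; exact hc
  have hμ : ∀ g h, signedBijectionKernel c I ε g h =
      ∑ η ∈ Bfin c, (ε η : ℂ) * (I η : G → ℂ) g * (η : H → ℂ) h := by
    intro g h
    unfold signedBijectionKernel
    rw [finsum_mem_eq_Bfin]
  have hεc : ∀ η ∈ Bfin c, (ε η : ℂ) * (ε η : ℂ) = 1 := by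
    intro η hη
    exact_mod_cast hε η (mem_Bfin.mp hη)
  have hIεc : ∀ i, ∀ η ∈ Bfin c, (ε η : ℂ) * (F i (I η) : ℂ) = (F' i η : ℂ) := by
    intro i η hη
    exact_mod_cast hIε i η (mem_Bfin.mp hη)
  have hIεc' : ∀ i, ∀ η ∈ Bfin c, (ε η : ℂ) * (F' i η : ℂ) = (F i (I η) : ℂ) := by
    intro i η hη
    rw [← hIεc i η hη, ← mul_assoc, hεc η hη, one_mul]
  have hbij : ∀ f : IrrCharacter G → ℂ, ∑ η ∈ Bfin c, f (I η) = ∑ χ ∈ Bfin B, f χ := by
    intro f
    refine Finset.sum_bij (fun η _ => I η) (fun η hη => mem_Bfin.mpr (hI.mapsTo (mem_Bfin.mp hη)))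
      (fun η hη η' hη' h => hI.injOn (mem_Bfin.mp hη) (mem_Bfin.mp hη') h) ?_ (fun _ _ => rfl)
    intro χ hχ
    obtain ⟨η, h1, h2⟩ := hI.surjOn (mem_Bfin.mp hχ)
    exact ⟨η, mem_Bfin.mpr h1, h2⟩
  -- mixed values
  have hmix1 : ∀ g h, ¬ 2 ∣ orderOf g → 2 ∣ orderOf h → signedBijectionKernel c I ε g h = 0 := by
    intro g h hg hh
    obtain ⟨a, ha, -⟩ := hF'.sing h hh
    rw [hμ]
    have h1 : ∀ η ∈ Bfin c, (ε η : ℂ) * (I η : G → ℂ) g * (η : H → ℂ) h =
        ∑ i, a i * ((F i (I η) : ℂ) * (I η : G → ℂ) g) := by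
      intro η hη
      rw [ha η (mem_Bfin.mp hη), Finset.mul_sum]
      refine Finset.sum_congr rfl fun i _ => ?_
      rw [← hIεc' i η hη]
      ring
    rw [Finset.sum_congr rfl h1, Finset.sum_comm]
    refine Finset.sum_eq_zero fun i _ => ?_
    rw [← Finset.mul_sum, hbij fun χ => (F i χ : ℂ) * (χ : G → ℂ) g, hF.reg g hg i, mul_zero]
  have hmix2 : ∀ g h, 2 ∣ orderOf g → ¬ 2 ∣ orderOf h → signedBijectionKernel c I ε g h = 0 := by
    intro g h hg hh
    obtain ⟨a, ha, -⟩ := hF.sing g hg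
    rw [hμ]
    have h1 : ∀ η ∈ Bfin c, (ε η : ℂ) * (I η : G → ℂ) g * (η : H → ℂ) h =
        ∑ i, a i * ((F' i η : ℂ) * (η : H → ℂ) h) := by
      intro η hη
      rw [ha (I η) (hI.mapsTo (mem_Bfin.mp hη)), Finset.mul_sum, Finset.sum_mul]
      refine Finset.sum_congr rfl fun i _ => ?_
      rw [← hIεc i η hη]
      ring
    rw [Finset.sum_congr rfl h1, Finset.sum_comm]
    refine Finset.sum_eq_zero fun i _ => ?_
    rw [← Finset.mul_sum, hF'.reg h hh i, mul_zero]
  refine ⟨hI, fun η hη => ?_, fun g h => ?_⟩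
  · exact mul_self_eq_one_iff.mp (hε η hη)
  by_cases hg : 2 ∣ orderOf g
  · by_cases hh : 2 ∣ orderOf h
    · obtain ⟨a, ha, ha2⟩ := hF.sing g hg
      obtain ⟨a', ha', ha2'⟩ := hF'.sing h hh
      have h1 : signedBijectionKernel c I ε g h = ∑ i, 4 * (a i * a' i) := by
        rw [hμ]
        have h2 : ∀ η ∈ Bfin c, (ε η : ℂ) * (I η : G → ℂ) g * (η : H → ℂ) h =
            ∑ i, ∑ j, a i * a' j * ((F' i η : ℂ) * (F' j η : ℂ)) := by
          intro η hη
          rw [ha (I η) (hI.mapsTo (mem_Bfin.mp hη)), ha' η (mem_Bfin.mp hη), mul_assoc,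
            Finset.sum_mul_sum, Finset.mul_sum]
          refine Finset.sum_congr rfl fun i _ => ?_
          rw [Finset.mul_sum]
          refine Finset.sum_congr rfl fun j _ => ?_
          rw [← hIεc i η hη]
          ring
        rw [Finset.sum_congr rfl h2, Finset.sum_comm]
        refine Finset.sum_congr rfl fun i _ => ?_
        rw [Finset.sum_comm, Finset.sum_eq_single i]
        · rw [← Finset.mul_sum]
          have h3 : ∑ η ∈ Bfin c, (F' i η : ℂ) * (F' i η : ℂ) = 4 := by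
            have h4 : ∑ η ∈ Bfin c, F' i η * F' i η = 4 := by
              rw [Finset.sum_congr rfl fun η hη => hF'.sq i η (mem_Bfin.mp hη)]
              simp [hcc]
            exact_mod_cast h4
          rw [h3]
          ring
        · intro j _ hj
          rw [← Finset.mul_sum]
          have h3 : ∑ η ∈ Bfin c, (F' i η : ℂ) * (F' j η : ℂ) = 0 := by
            exact_mod_cast hF'.orth i j hj.symm
          rw [h3, mul_zero]
        · intro h; exact absurd (Finset.mem_univ _) h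
      refine ⟨?_, ?_, Or.inl ⟨fun h' => absurd hg h', fun h' => absurd hh h'⟩⟩
      · rw [h1, Finset.sum_div]
        refine mlr_sum _ _ fun i _ => ?_
        rw [show 4 * (a i * a' i) / (Nat.card (Subgroup.centralizer ({g} : Set G)) : ℂ) =
          4 * a i / (Nat.card (Subgroup.centralizer ({g} : Set G)) : ℂ) * a' i by ring]
        exact mlr_mul (ha2 i).2 (ha2' i).1
      · rw [h1, Finset.sum_div]
        refine mlr_sum _ _ fun i _ => ?_
        rw [show 4 * (a i * a' i) / (Nat.card (Subgroup.centralizer ({h} : Set H)) : ℂ) =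
          a i * (4 * a' i / (Nat.card (Subgroup.centralizer ({h} : Set H)) : ℂ)) by ring]
        exact mlr_mul (ha2 i).1 (ha2' i).2
    · rw [hmix2 g h hg hh, zero_div, zero_div]
      exact ⟨mlr_zero, mlr_zero, Or.inr rfl⟩
  · by_cases hh : 2 ∣ orderOf h
    · rw [hmix1 g h hg hh, zero_div, zero_div]
      exact ⟨mlr_zero, mlr_zero, Or.inr rfl⟩
    · refine ⟨?_, ?_, Or.inl ⟨fun _ => hh, fun _ => hg⟩⟩
      · -- as a function of the first variable
        set J : IrrCharacter G → ℂ := fun χ => ∑ η ∈ (Bfin c).filter (fun η => I η = χ),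
          (ε η : ℂ) * (η : H → ℂ) h with hJ
        refine mlr_div_of_vanish hM (S := Bfin B) (a := J)
          (f := fun g => signedBijectionKernel c I ε g h) ?_ ?_ ?_ hg
        · intro χ _
          exact mlr_sum _ _ fun η _ => mlr_mul (mlr_intCast _) (mlr_of_isIntegral (irr_isIntegral η h))
        · intro g
          show signedBijectionKernel c I ε g h = _
          rw [hμ, ← hbij fun χ => J χ * (χ : G → ℂ) g]
          refine Finset.sum_congr rfl fun η hη => ?_
          have h1 : (Bfin c).filter (fun η' => I η' = I η) = {η} := by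
            ext η'
            rw [Finset.mem_filter, Finset.mem_singleton]
            constructor
            · rintro ⟨h2, h3⟩
              exact hI.injOn (mem_Bfin.mp h2) (mem_Bfin.mp hη) h3
            · rintro rfl
              exact ⟨hη, rfl⟩
          simp only [hJ]
          rw [h1, Finset.sum_singleton]
          ring
        · intro g hg
          exact hmix2 g h hg hh
      · refine mlr_div_of_vanish hM (S := Bfin c)
          (a := fun η => (ε η : ℂ) * (I η : G → ℂ) g)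
          (f := fun h => signedBijectionKernel c I ε g h) ?_ ?_ ?_ hh
        · intro η _
          exact mlr_mul (mlr_intCast _) (mlr_of_isIntegral (irr_isIntegral (I η) g))
        · intro h
          exact hμ g h
        · intro h hh
          exact hmix1 g h hg hh

end Match

end Cfsg.Agent.H4
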