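import Cfsg.Agent.H4.PerfIso

/-!
# The Brauer correspondent of a block with Klein four defect group (owner: helper4)
-/

set_option autoImplicit false
set_option linter.style.haveILetI false
set_option linter.unusedSectionVars false

namespace Cfsg.Agent.H4

open scoped ComplexConjugate
open Cfsg Cfsg.Agent.CharBase Cfsg.Agent.Blk Cfsg.Agent.BlkInd Cfsg.Agent.BlkC Cfsg.Agent.BlkF

universe u

variable {G : Type u} [Group G] [Fintype G] {M : Ideal AlgInt} {B : Set (IrrCharacter G)}

/-- the centralizer of `P` computed in `N_G(P)` -/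
noncomputable def centEquiv (P : Subgroup G) :
    Subgroup.centralizer (P.subgroupOf (Subgroup.normalizer (P : Set G)) :
      Set (Subgroup.normalizer (P : Set G))) ≃* Subgroup.centralizer (P : Set G) :=
  MulEquiv.ofBijective
    ({ toFun := fun x => ⟨((x : Subgroup.normalizer (P : Set G)) : G), by
          rw [Subgroup.mem_centralizer_iff]
          intro y hy
          have h1 : (⟨y, Subgroup.le_normalizer hy⟩ : Subgroup.normalizer (P : Set G)) ∈
              P.subgroupOf (Subgroup.normalizer (P : Set G)) := hy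
          exact congrArg Subtype.val (Subgroup.mem_centralizer_iff.mp x.2 _ h1)⟩
       map_one' := rfl
       map_mul' := fun _ _ => rfl } :
      Subgroup.centralizer (P.subgroupOf (Subgroup.normalizer (P : Set G)) :
      Set (Subgroup.normalizer (P : Set G))) →* Subgroup.centralizer (P : Set G))
    ⟨fun x y h => Subtype.ext (Subtype.ext (congrArg
        (fun z : Subgroup.centralizer (P : Set G) => (z : G)) h)), fun y =>
      ⟨⟨⟨y, Blk.centralizer_le_normalizer _ y.2⟩, by
        rw [Subgroup.mem_centralizer_iff]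
        intro z hz
        exact Subtype.ext (Subgroup.mem_centralizer_iff.mp y.2 _ hz)⟩, rfl⟩⟩

theorem centEquiv_coe (P : Subgroup G) (x : Subgroup.centralizer
    (P.subgroupOf (Subgroup.normalizer (P : Set G)) : Set (Subgroup.normalizer (P : Set G)))) :
    ((centEquiv P x : Subgroup.centralizer (P : Set G)) : G) =
      ((x : Subgroup.normalizer (P : Set G)) : G) := rfl

theorem rank_correspondent [∀ x : G, Fintype (Subgroup.centralizer ({x} : Set G))]
    (hM : IsPModular 2 M) (hB : IsPBlock M B) {P : Subgroup G}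
    (hPD : IsDefectGroup 2 M B P) (hV : IsKleinFour P)
    [Fintype (Subgroup.normalizer (P : Set G))]
    [∀ x : Subgroup.normalizer (P : Set G), Fintype (Subgroup.centralizer ({x} : Set (Subgroup.normalizer (P : Set G))))]
    {c : Set (IrrCharacter (Subgroup.normalizer (P : Set G)))}
    (hcD : IsDefectGroup 2 M c (P.subgroupOf (Subgroup.normalizer (P : Set G))))
    (hc : IsInducedBlock M (Subgroup.normalizer (P : Set G)) c B)
    (hV' : IsKleinFour (P.subgroupOf (Subgroup.normalizer (P : Set G)))) :
    blockRank 2 c = blockRank 2 B := by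
  classical
  haveI := isPrime_of_isPModular hM
  haveI := charP_kM hM
  set N := Subgroup.normalizer (P : Set G) with hN
  set P' := P.subgroupOf N with hP'
  obtain ⟨b', hb'⟩ := exists_root (G := N) hM hc.1 hcD
  haveI : Fintype (Subgroup.centralizer (P' : Set N)) := Fintype.ofFinite _
  haveI : Fintype (Subgroup.centralizer (P : Set G)) := Fintype.ofFinite _
  have hb : IsInducedBlock M (Subgroup.centralizer (P : Set G))
      (irrMap (centEquiv P) '' b') B :=
    (isInducedBlock_trans_iff (centEquiv P) (centEquiv_coe P) hb').mpr hc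
  set b := irrMap (centEquiv P) '' b' with hbdef
  set T := stab N (EB M (Subgroup.centralizer (P : Set G)) b) with hT
  have hTm : ∀ g : G, g ∈ T ↔ (g ∈ N ∧
      StabilizesBlock (Subgroup.centralizer (P : Set G)) b g) := by
    intro g
    rw [hT, mem_stab]
    constructor
    · rintro ⟨h1, h2⟩
      exact ⟨h1, (stabilizesBlock_iff hb.1 g).mpr
        ⟨normalizer_le_normalizer_centralizer P h1, h2⟩⟩
    · rintro ⟨h1, h2⟩
      exact ⟨h1, ((stabilizesBlock_iff hb.1 g).mp h2).2⟩
  have hTN : T ≤ N := fun g hg => ((hTm g).mp hg).1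
  have hPn : P'.Normal := by rw [hP']; exact Subgroup.normal_in_normalizer
  have hcon : ∀ (n : N) (χ χ' : IrrCharacter (Subgroup.centralizer (P' : Set N))),
      IsConjCharOf (Subgroup.centralizer (P : Set G)) (n : G) (irrMap (centEquiv P) χ)
        (irrMap (centEquiv P) χ') ↔
      IsConjCharOf (Subgroup.centralizer (P' : Set N)) n (χ : Subgroup.centralizer (P' : Set N) → ℂ)
        (χ' : Subgroup.centralizer (P' : Set N) → ℂ) := by
    intro n χ χ'
    constructor
    · intro h k k' hk
      have h1 := h (centEquiv P k) (centEquiv P k') (by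
        rw [centEquiv_coe, centEquiv_coe, hk]; rfl)
      rw [irrMap_apply, irrMap_apply, MulEquiv.symm_apply_apply, MulEquiv.symm_apply_apply] at h1
      exact h1
    · intro h k k' hk
      rw [irrMap_apply, irrMap_apply]
      refine h _ _ (Subtype.ext ?_)
      have h1 : ∀ y : Subgroup.centralizer (P : Set G),
          ((((centEquiv P).symm y : Subgroup.centralizer (P' : Set N)) : N) : G) = y := by
        intro y
        rw [← centEquiv_coe, MulEquiv.apply_symm_apply]
      change ((((centEquiv P).symm k' : Subgroup.centralizer (P' : Set N)) : N) : G) =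
        (n : G) * ((((centEquiv P).symm k : Subgroup.centralizer (P' : Set N)) : N) : G) * (n : G)⁻¹
      rw [h1, h1, hk]
  have hTm' : ∀ n : N, n ∈ T.subgroupOf N ↔ (n ∈ Subgroup.normalizer (P' : Set N) ∧
      StabilizesBlock (Subgroup.centralizer (P' : Set N)) b' n) := by
    intro n
    rw [Subgroup.mem_subgroupOf, hTm]
    have hnn : n ∈ Subgroup.normalizer (P' : Set N) := by
      rw [Subgroup.normalizer_eq_top_iff.mpr hPn]; exact Subgroup.mem_top n
    constructor
    · rintro ⟨-, h2⟩
      refine ⟨hnn, normalizer_le_normalizer_centralizer P' hnn, fun χ hχ => ?_⟩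
      obtain ⟨ψ, hψ, h3⟩ := h2.2 (irrMap (centEquiv P) χ) ⟨χ, hχ, rfl⟩
      obtain ⟨χ', hχ', rfl⟩ := hψ
      exact ⟨χ', hχ', (hcon n χ χ').mp h3⟩
    · rintro ⟨-, h2⟩
      refine ⟨n.2, normalizer_le_normalizer_centralizer P n.2, ?_⟩
      rintro _ ⟨χ, hχ, rfl⟩
      obtain ⟨χ', hχ', h3⟩ := h2.2 χ hχ
      exact ⟨irrMap (centEquiv P) χ', ⟨χ', hχ', rfl⟩, (hcon n χ χ').mpr h3⟩
  have h1 := (klein_defect hM hB hPD hV hb hTm).2.2
  have h2 := (klein_defect (G := N) hM hc.1 hcD hV' hb' hTm').2.2
  rw [h1, h2]
  have h3 : Subgroup.centralizer (P' : Set N) = (Subgroup.centralizer (P : Set G)).subgroupOf N := by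
    ext n
    rw [Subgroup.mem_subgroupOf, Subgroup.mem_centralizer_iff, Subgroup.mem_centralizer_iff]
    constructor
    · intro h y hy
      exact congrArg Subtype.val (h ⟨y, Subgroup.le_normalizer hy⟩ hy)
    · intro h y hy
      exact Subtype.ext (h y hy)
  rw [h3]
  exact Subgroup.relIndex_subgroupOf hTN

/-- **S4638** -/
theorem klein_perfect (hM : IsPModular 2 M) (hB : IsPBlock M B) {P : Subgroup G}
    (hPD : IsDefectGroup 2 M B P) (hV : IsKleinFour P)
    {c : Set (IrrCharacter (Subgroup.normalizer (P : Set G)))}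
    (hcD : IsDefectGroup 2 M c (P.subgroupOf (Subgroup.normalizer (P : Set G))))
    (hc : IsInducedBlock M (Subgroup.normalizer (P : Set G)) c B) :
    ∃ (I : IrrCharacter (Subgroup.normalizer (P : Set G)) → IrrCharacter G)
      (ε : IrrCharacter (Subgroup.normalizer (P : Set G)) → ℤ), IsPerfectIsometry 2 M c B I ε := by
  classical
  haveI : ∀ x : G, Fintype (Subgroup.centralizer ({x} : Set G)) := fun x => Fintype.ofFinite _
  haveI : Fintype (Subgroup.normalizer (P : Set G)) := Fintype.ofFinite _
  haveI : ∀ x : Subgroup.normalizer (P : Set G), Fintype (Subgroup.centralizer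
    ({x} : Set (Subgroup.normalizer (P : Set G)))) := fun x => Fintype.ofFinite _
  have hV' : IsKleinFour (P.subgroupOf (Subgroup.normalizer (P : Set G))) := by
    have e := Subgroup.subgroupOfEquivOfLe (Subgroup.le_normalizer (H := P))
    exact ⟨by rw [Nat.card_congr e.toEquiv]; exact hV.card_four,
      by rw [Monoid.exponent_eq_of_mulEquiv e]; exact hV.exponent_two⟩
  obtain ⟨n, F, hF, hn, hl, hk⟩ := klein_kab hM hB hPD hV
  obtain ⟨n', F', hF', hn', hl', hk'⟩ := klein_kab (G := Subgroup.normalizer (P : Set G)) hM hc.1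
    hcD hV'
  have hr := rank_correspondent hM hB hPD hV hcD hc hV'
  have hnn : n' = n := by omega
  subst hnn
  obtain ⟨I, ε, h1, h2, h3⟩ := exists_match hF hF' hn hk hk'
  exact ⟨I, ε, perfect_of_kab hM hF hF' hk' h1 h2 h3⟩

end Cfsg.Agent.H4
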