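import Mathlib
import Cfsg.Agent.H4.BSuz
import Cfsg.Agent.H4.Final

/-!
# The principal 2-block of a group with quaternion Sylow subgroup of order 8
-/

set_option autoImplicit false
set_option linter.style.haveILetI false
set_option linter.unusedSectionVars false

namespace Cfsg.Agent.H4

universe u

section Cent

variable {G : Type u} [Group G] [Finite G]

theorem IsQ8.mem_zpowers_of_commute {S : Subgroup G} {u : G} (hQ : IsQ8 S u) {y w : G}
    (hy : y ∈ S) (hw : w ∈ S) (hyy : y * y ≠ 1) (hc : Commute w y) :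
    w ∈ Subgroup.zpowers y := by
  by_cases hww : w * w = 1
  · rcases hQ.sq w hw hww with rfl | rfl
    · exact Subgroup.one_mem _
    · rw [← hQ.sq' y hy hyy]
      exact Subgroup.mul_mem _ (Subgroup.mem_zpowers y) (Subgroup.mem_zpowers y)
  · by_cases h1 : w = y
    · rw [h1]; exact Subgroup.mem_zpowers y
    · by_cases h2 : w = y⁻¹
      · rw [h2]; exact Subgroup.inv_mem _ (Subgroup.mem_zpowers y)
      · exfalso
        have h3 := IsQ8.conj hQ y hy w hw hyy hww h1 h2
        rw [hc.eq, mul_inv_cancel_right] at h3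
        apply hyy
        conv_lhs => arg 2; rw [h3]
        rw [mul_inv_cancel]

theorem IsQ8.centralizer_npc {S : Sylow 2 G} {u : G} (hQ : IsQ8 (S : Subgroup G) u) {x : G}
    (hx : orderOf x = 4) :
    (∃ k : ℕ, (Cfsg.pPrimeCore 2 (Subgroup.centralizer ({x} : Set G))).index = 2 ^ k) ∧
      (Nat.card (Subgroup.centralizer ({x} : Set G))).factorization 2 = 2 := by
  haveI : Fact (Nat.Prime 2) := ⟨Nat.prime_two⟩
  set X := Subgroup.centralizer ({x} : Set G) with hX
  have hxX : x ∈ X := by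
    rw [hX, Subgroup.mem_centralizer_singleton_iff]
  have hxp : IsPGroup 2 (Subgroup.zpowers (⟨x, hxX⟩ : X)) := by
    rw [IsPGroup.iff_card]
    refine ⟨2, ?_⟩
    rw [Nat.card_zpowers, ← Subgroup.orderOf_coe]
    exact hx
  obtain ⟨R, hR⟩ := hxp.exists_le_sylow
  have hRx : (R : Subgroup X) = Subgroup.zpowers (⟨x, hxX⟩ : X) := by
    refine le_antisymm ?_ hR
    have hRG : IsPGroup 2 ((R : Subgroup X).map X.subtype) := R.2.map _
    obtain ⟨R', hR'⟩ := hRG.exists_le_sylow
    obtain ⟨g, hg⟩ := MulAction.exists_smul_eq G R' S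
    have hconj : ∀ r : X, r ∈ R → g * (r : G) * g⁻¹ ∈ (S : Subgroup G) := by
      intro r hr
      have h1 : (r : G) ∈ (R' : Subgroup G) := hR' (Subgroup.mem_map_of_mem _ hr)
      have h2 : g * (r : G) * g⁻¹ = (MulAut.conj g) r := rfl
      have h3 : (MulAut.conj g) (r : G) ∈ (g • R' : Sylow 2 G) :=
        Subgroup.smul_mem_pointwise_smul _ _ _ h1
      rw [hg] at h3
      exact h3
    have hxR : (⟨x, hxX⟩ : X) ∈ R := hR (Subgroup.mem_zpowers _)
    have hy := hconj _ hxR
    have hyy : g * x * g⁻¹ * (g * x * g⁻¹) ≠ 1 := by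
      intro h
      have h1 : g * x * g⁻¹ * (g * x * g⁻¹) = g * (x * x) * g⁻¹ := by group
      rw [h1, conj_eq_one_iff] at h
      have h2 : orderOf x ∣ 2 := orderOf_dvd_of_pow_eq_one (by rw [pow_two, h])
      rw [hx] at h2
      omega
    intro r hr
    have h1 := hQ.mem_zpowers_of_commute hy (hconj r hr) hyy (by
      have h2 : Commute (r : G) x := Subgroup.mem_centralizer_singleton_iff.mp r.2
      have h3 := h2.map (MulAut.conj g).toMonoidHom
      exact h3)
    obtain ⟨k, hk⟩ := Subgroup.mem_zpowers_iff.mp h1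
    rw [conj_zpow] at hk
    have h2 : x ^ k = r := mul_left_cancel (mul_right_cancel hk)
    refine Subgroup.mem_zpowers_iff.mpr ⟨k, Subtype.ext ?_⟩
    rw [Subgroup.coe_zpow]
    exact h2
  have hcardR : Nat.card (R : Subgroup X) = 4 := by
    rw [hRx, Nat.card_zpowers, ← Subgroup.orderOf_coe]
    exact hx
  have hfac : (Nat.card X).factorization 2 = 2 := by
    have h1 := R.card_eq_multiplicity
    rw [hcardR] at h1
    have h2 : (2 : ℕ) ^ 2 = 2 ^ (Nat.card X).factorization 2 := by rw [← h1]; norm_num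
    exact (Nat.pow_right_injective le_rfl h2).symm
  refine ⟨?_, hfac⟩
  have hcyc : IsCyclic (R : Subgroup X) := by
    rw [hRx]; infer_instance
  have heven : 2 ∣ Nat.card X := by
    have h1 : orderOf (⟨x, hxX⟩ : X) ∣ Nat.card X := orderOf_dvd_natCard _
    rw [← Subgroup.orderOf_coe] at h1
    change orderOf x ∣ _ at h1
    rw [hx] at h1
    exact (by norm_num : (2 : ℕ) ∣ 4).trans h1
  have hcompl := IsCyclic.isComplement' (P := R) ((Nat.minFac_eq_two_iff _).mpr heven) hcyc
  set N := (MonoidHom.transferSylow R (hcyc.normalizer_le_centralizer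
    ((Nat.minFac_eq_two_iff _).mpr heven))).ker with hN
  have hNodd : Odd (Nat.card N) := by
    have h1 : (R : Subgroup X).index = Nat.card N := hcompl.index_eq_card
    rw [← h1, ← Nat.not_even_iff_odd, even_iff_two_dvd]
    exact R.not_dvd_index
  have hNle : N ≤ Cfsg.pPrimeCore 2 X := le_pPrimeCore_two inferInstance hNodd
  have hNidx : N.index = 2 ^ 2 := by
    rw [hcompl.symm.index_eq_card, hcardR]
    norm_num
  have h1 : (Cfsg.pPrimeCore 2 X).index ∣ 2 ^ 2 := hNidx ▸ Subgroup.index_dvd_of_le hNle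
  obtain ⟨j, -, hj⟩ := (Nat.dvd_prime_pow Nat.prime_two).mp h1
  exact ⟨j, hj⟩

end Cent

open scoped ComplexConjugate
open Cfsg Cfsg.Agent.CharBase Cfsg.Agent.Char Cfsg.Agent.Solv

section Main

variable {G : Type u} [Group G] [Fintype G] {u : G} {z : Fin 3 → IrrCharacter G} {e : Fin 3 → ℤ}

open Classical in
theorem card_principalBlock_q8 {M : Ideal AlgInt} (hM : IsPModular 2 M) {S : Sylow 2 G}
    (hQ : IsQ8 (S : Subgroup G) u) (hd : SecData u z e)
    (hev : ∀ ψ ∈ principalBlock M G, (∀ c, (ψ : G → ℂ) (u * c) = (ψ : G → ℂ) c) →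
        ψ = oneIrr G ∨ ∃ i, ψ = z i)
    (hzB : ∀ i, z i ∈ principalBlock M G) : Nat.card (principalBlock M G) = 7 := by
  haveI := Fintype.ofFinite (IrrCharacter G)
  haveI : Fact (Nat.Prime 2) := ⟨Nat.prime_two⟩
  haveI : M.IsPrime := hM.2.1.isPrime
  have hU := hd.ui
  have hG : (Nat.card G : ℂ) ≠ 0 := by exact_mod_cast Nat.card_pos.ne'
  choose η hη hηv using hU.exists_sign
  set B := principalBlock M G with hB
  have hBB : IsPBlock M B := by
    refine ⟨oneIrr G, ?_⟩
    have h : (oneIrr G : G → ℂ) = fun _ => 1 := funext fun g => oneIrr_apply g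
    rw [h, hB]
    rfl
  have hoB : oneIrr G ∈ B := mem_principalBlock_one
  set E : Finset (IrrCharacter G) := insert (oneIrr G) (Finset.univ.image z) with hE
  have hEcard : E.card = 4 := by
    rw [hE, Finset.card_insert_of_notMem, Finset.card_image_of_injective _ hd.inj, Finset.card_univ,
      Fintype.card_fin]
    intro h
    obtain ⟨i, -, hi⟩ := Finset.mem_image.mp h
    exact hd.ne_one i hi
  have hEB : ∀ ψ ∈ E, ψ ∈ B := by
    intro ψ hψ
    rcases Finset.mem_insert.mp hψ with rfl | h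
    · exact hoB
    · obtain ⟨i, -, rfl⟩ := Finset.mem_image.mp h
      exact hzB i
  have hEval : ∀ ψ ∈ E, ∀ g, 4 ∣ orderOf g → (ψ : G → ℂ) g = 1 ∨ (ψ : G → ℂ) g = -1 := by
    intro ψ hψ g hg
    rcases Finset.mem_insert.mp hψ with rfl | h
    · left; rw [oneIrr_apply]
    · obtain ⟨i, -, rfl⟩ := Finset.mem_image.mp h
      rw [hd.four i g hg]
      rcases hd.sgn i with h1 | h1 <;> rw [h1] <;> norm_num
  have hEη : ∀ ψ ∈ E, η ψ = 1 := by
    intro ψ hψ
    have h1 : (ψ : G → ℂ) (u * 1) = (ψ : G → ℂ) 1 := by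
      rcases Finset.mem_insert.mp hψ with rfl | h
      · rw [oneIrr_apply, oneIrr_apply]
      · obtain ⟨i, -, rfl⟩ := Finset.mem_image.mp h
        exact hd.inv i 1
    rw [hηv] at h1
    rcases hη ψ with h2 | h2
    · exact h2
    · exfalso
      rw [h2, H75.deg_spec] at h1
      have h3 := H75.deg_pos ψ
      have h4 : ((H75.deg ψ : ℤ) : ℂ) = ((0 : ℤ) : ℂ) := by
        push_cast at h1 ⊢
        linear_combination (-1 / 2 : ℂ) * h1
      have h5 : (H75.deg ψ : ℤ) = 0 := by exact_mod_cast h4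
      omega
  have hηE : ∀ ψ ∈ B, η ψ = 1 → ψ ∈ E := by
    intro ψ hψ h1
    rcases hev ψ hψ (fun c => by rw [hηv, h1]; push_cast; ring) with h2 | ⟨i, h2⟩
    · rw [h2]; exact Finset.mem_insert_self _ _
    · rw [h2]; exact Finset.mem_insert_of_mem (Finset.mem_image_of_mem _ (Finset.mem_univ i))
  -- faithful members vanish on elements of order divisible by 4
  have hvan : ∀ χ ∈ B, χ ∉ E → ∀ g, 4 ∣ orderOf g → (χ : G → ℂ) g = 0 := by
    intro χ hχ hχE g hg
    obtain ⟨a, b, hab, hcomm, ⟨k, hk⟩, hb, -, -⟩ := BlkInd.exists_decomp Nat.prime_two g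
    have hc : Commute a b := hcomm.symm
    have hcop : Nat.Coprime (orderOf a) (orderOf b) := by
      rw [hk]
      exact Nat.Coprime.pow_left _ ((Nat.Prime.coprime_iff_not_dvd Nat.prime_two).mpr hb)
    have hord : orderOf g = orderOf a * orderOf b := by
      rw [← hab]
      exact hc.orderOf_mul_eq_mul_orderOf_of_coprime hcop
    have ha4 : orderOf a = 4 := by
      have h1 : 4 ∣ orderOf a := by
        rw [hord] at hg
        refine Nat.Coprime.dvd_of_dvd_mul_right ?_ hg
        have : Nat.Coprime (2 ^ 2) (orderOf b) :=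
          Nat.Coprime.pow_left _ ((Nat.Prime.coprime_iff_not_dvd Nat.prime_two).mpr hb)
        exact this
      obtain ⟨c, hc⟩ := exists_conj_mem_sylow S (x := a) (k := k)
        (by rw [← hk, pow_orderOf_eq_one])
      have h2 : c * a * c⁻¹ * (c * a * c⁻¹) ≠ 1 := by
        intro h
        have h3 : orderOf (c * a * c⁻¹) ∣ 2 := orderOf_dvd_of_pow_eq_one (by rw [pow_two, h])
        rw [orderOf_conj'] at h3
        have := Nat.le_of_dvd (by norm_num) (h1.trans h3)
        omega
      have h3 := hQ.orderOf_eq_four hc h2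
      rwa [orderOf_conj'] at h3
    have hnpc := hQ.centralizer_npc ha4
    have hbm : b ∈ Subgroup.centralizer ({a} : Set G) := by
      rw [Subgroup.mem_centralizer_singleton_iff]
      exact hcomm
    have h1 := (Cfsg.Agent.S0947.result 2 M hM a ⟨2, by rw [ha4]; norm_num⟩
      (by rintro rfl; rw [orderOf_one] at ha4; omega) ⟨b, hbm⟩
      (by rw [← Subgroup.orderOf_coe]; exact hb)).2 hnpc.1
    rw [hnpc.2, finsum_mem_real_eq_sum_ite] at h1
    simp only [hab] at h1
    have h2 : ∑ ψ ∈ E, ‖(ψ : G → ℂ) g‖ ^ 2 = 4 := by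
      have h3 : ∀ ψ ∈ E, ‖(ψ : G → ℂ) g‖ ^ 2 = 1 := by
        intro ψ hψ
        rcases hEval ψ hψ g hg with h4 | h4 <;> rw [h4] <;> simp
      rw [Finset.sum_congr rfl h3, Finset.sum_const, hEcard]
      norm_num
    have h3 : ∑ ψ ∈ insert χ E, ‖(ψ : G → ℂ) g‖ ^ 2 ≤ 4 := by
      have h4 : ∑ ψ ∈ insert χ E, ‖(ψ : G → ℂ) g‖ ^ 2 =
          ∑ ψ ∈ insert χ E, (if ψ ∈ B then ‖(ψ : G → ℂ) g‖ ^ 2 else 0) := by
        refine Finset.sum_congr rfl fun ψ hψ => ?_
        rw [if_pos]
        rcases Finset.mem_insert.mp hψ with rfl | h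
        · exact hχ
        · exact hEB ψ h
      rw [h4]
      refine (Finset.sum_le_sum_of_subset_of_nonneg (Finset.subset_univ _)
        (fun ψ _ _ => by split_ifs <;> positivity)).trans (le_of_eq ?_)
      rw [hB, h1]
      norm_num
    rw [Finset.sum_insert hχE, h2] at h3
    have h4 : ‖(χ : G → ℂ) g‖ ^ 2 ≤ 0 := by linarith
    have h5 : ‖(χ : G → ℂ) g‖ ^ 2 = 0 := le_antisymm h4 (sq_nonneg _)
    exact norm_eq_zero.mp (pow_eq_zero_iff (by norm_num) |>.mp h5)
  -- sums over the section of `u`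
  set T : IrrCharacter G → ℂ := fun χ => ∑ c : G, (if 2 ∣ orderOf c ∧ ¬ 4 ∣ orderOf c then
    (χ : G → ℂ) c * conj ((χ : G → ℂ) c) else 0) with hT
  have hTF : ∀ χ : IrrCharacter G, 2 * T χ + ∑ c : G, (if 4 ∣ orderOf c then
      (χ : G → ℂ) c * conj ((χ : G → ℂ) c) else 0) = Nat.card G := by
    intro χ
    have h1 := hU.two_mul_sum (F := fun c => if 4 ∣ orderOf c then 0 else
        (χ : G → ℂ) c * conj ((χ : G → ℂ) c))
      (fun c => by
        simp only [hU.four_dvd_iff, hηv, map_mul, conj_int]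
        split_ifs
        · rfl
        · have h2 : (η χ : ℂ) * η χ = 1 := by
            rcases hη χ with h | h <;> rw [h] <;> norm_num
          linear_combination ((χ : G → ℂ) c * conj ((χ : G → ℂ) c)) * h2)
      (fun c hc => by simp only [hc, if_true])
    have h2 : ∑ c : G, (if 2 ∣ orderOf c ∧ ¬ 4 ∣ orderOf c then (if 4 ∣ orderOf c then 0 else
        (χ : G → ℂ) c * conj ((χ : G → ℂ) c)) else 0) = T χ := by
      rw [hT]
      refine Finset.sum_congr rfl fun c _ => ?_
      by_cases h3 : 2 ∣ orderOf c ∧ ¬ 4 ∣ orderOf c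
      · rw [if_pos h3, if_pos h3, if_neg h3.2]
      · rw [if_neg h3, if_neg h3]
    rw [h2] at h1
    rw [h1, ← Finset.sum_add_distrib]
    have h3 : classInner (χ : G → ℂ) (χ : G → ℂ) = 1 := classInner_irr_self χ
    unfold classInner at h3
    rw [inv_mul_eq_iff_eq_mul₀ hG, mul_one] at h3
    rw [← h3]
    refine Finset.sum_congr rfl fun c _ => ?_
    split_ifs <;> ring
  -- the size of the section of elements of order divisible by `4`
  have hX : ∑ c : G, (if 4 ∣ orderOf c then (1 : ℂ) else 0) = Nat.card G / 4 := by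
    have h1 := hd.classInner_th
    unfold classInner at h1
    rw [inv_mul_eq_iff_eq_mul₀ hG] at h1
    have h2 : ∀ c : G, sTh z e c * conj (sTh z e c) = 16 * (if 4 ∣ orderOf c then (1 : ℂ) else 0) := by
      intro c
      by_cases hc : 4 ∣ orderOf c
      · rw [hd.th_four c hc, if_pos hc]
        have : conj (4 : ℂ) = 4 := Complex.conj_ofNat 4
        rw [this]
        norm_num
      · rw [hd.th_zero c hc, if_neg hc]
        simp
    rw [Finset.sum_congr rfl fun c _ => h2 c, ← Finset.mul_sum] at h1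
    linear_combination (1 / 16 : ℂ) * h1
  have hTE : ∀ χ ∈ E, T χ = 3 / 8 * Nat.card G := by
    intro χ hχ
    have h1 := hTF χ
    have h2 : ∑ c : G, (if 4 ∣ orderOf c then (χ : G → ℂ) c * conj ((χ : G → ℂ) c) else 0) =
        Nat.card G / 4 := by
      rw [← hX]
      refine Finset.sum_congr rfl fun c _ => ?_
      split_ifs with hc
      · rcases hEval χ hχ c hc with h3 | h3 <;> rw [h3] <;> simp
      · rfl
    rw [h2] at h1
    linear_combination (1 / 2 : ℂ) * h1
  have hTO : ∀ χ ∈ B, χ ∉ E → T χ = 1 / 2 * Nat.card G := by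
    intro χ hχ hχE
    have h1 := hTF χ
    have h2 : ∑ c : G, (if 4 ∣ orderOf c then (χ : G → ℂ) c * conj ((χ : G → ℂ) c) else 0) = 0 := by
      refine Finset.sum_eq_zero fun c _ => ?_
      split_ifs with hc
      · rw [hvan χ hχ hχE c hc, zero_mul]
      · rfl
    rw [h2] at h1
    linear_combination (1 / 2 : ℂ) * h1
  -- block orthogonality
  have horth : ∑ χ : IrrCharacter G, (if χ ∈ B then (η χ : ℂ) * T χ else 0) = 0 := by
    have h1 : ∀ c : G, 2 ∣ orderOf c ∧ ¬ 4 ∣ orderOf c →
        ∑ χ : IrrCharacter G, (if χ ∈ B then (η χ : ℂ) *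
          ((χ : G → ℂ) c * conj ((χ : G → ℂ) c)) else 0) = 0 := by
      intro c hc
      have h2 := Cfsg.Agent.S0907.result 2 M hM B hBB (u * c) c ((hU.odd_mul_iff c).mpr hc) hc.1
      rw [finsum_mem_def, finsum_eq_sum_of_fintype] at h2
      refine Eq.trans (Finset.sum_congr rfl fun χ _ => ?_) h2
      by_cases h : χ ∈ B
      · rw [Set.indicator_of_mem h, if_pos h, hηv]
        ring
      · rw [Set.indicator_of_notMem h, if_neg h]
    have h2 : ∀ χ : IrrCharacter G, (if χ ∈ B then (η χ : ℂ) * T χ else 0) =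
        ∑ c : G, (if 2 ∣ orderOf c ∧ ¬ 4 ∣ orderOf c then (if χ ∈ B then (η χ : ℂ) *
          ((χ : G → ℂ) c * conj ((χ : G → ℂ) c)) else 0) else 0) := by
      intro χ
      split_ifs with h
      · rw [hT, Finset.mul_sum]
        refine Finset.sum_congr rfl fun c _ => ?_
        split_ifs
        · rfl
        · rw [mul_zero]
      · simp
    rw [Finset.sum_congr rfl fun χ _ => h2 χ, Finset.sum_comm]
    refine Finset.sum_eq_zero fun c _ => ?_
    by_cases hc : 2 ∣ orderOf c ∧ ¬ 4 ∣ orderOf c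
    · simp only [if_pos hc]
      exact h1 c hc
    · simp only [if_neg hc, Finset.sum_const_zero]
  -- count
  set F : Finset (IrrCharacter G) := Finset.univ.filter (fun χ => χ ∈ B) with hF
  have hEF : E ⊆ F := fun ψ hψ => Finset.mem_filter.mpr ⟨Finset.mem_univ _, hEB ψ hψ⟩
  have hcount : ∑ χ ∈ F, (η χ : ℂ) * T χ = 0 := by
    rw [hF, Finset.sum_filter]; exact horth
  rw [← Finset.sum_sdiff hEF] at hcount
  have h1 : ∑ χ ∈ E, (η χ : ℂ) * T χ = 4 * (3 / 8 * Nat.card G) := by
    rw [Finset.sum_congr rfl fun χ hχ => by rw [hEη χ hχ, hTE χ hχ], Finset.sum_const, hEcard]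
    push_cast
    ring
  have h2 : ∑ χ ∈ F \ E, (η χ : ℂ) * T χ = -(((F \ E).card : ℂ) * (1 / 2 * Nat.card G)) := by
    rw [Finset.sum_congr rfl (g := fun _ => -(1 / 2 * (Nat.card G : ℂ))) fun χ hχ => ?_,
      Finset.sum_const]
    · rw [nsmul_eq_mul]; ring
    · obtain ⟨h3, h4⟩ := Finset.mem_sdiff.mp hχ
      have h5 : χ ∈ B := (Finset.mem_filter.mp h3).2
      have h6 : η χ = -1 := (hη χ).resolve_left (fun h => h4 (hηE χ h5 h))
      rw [h6, hTO χ h5 h4]
      push_cast
      ring
  rw [h1, h2] at hcount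
  have h3 : ((F \ E).card : ℂ) = 3 := by
    have h4 : (Nat.card G : ℂ) * (((F \ E).card : ℂ) - 3) = 0 := by
      linear_combination (-2 : ℂ) * hcount
    have h5 := (mul_eq_zero.mp h4).resolve_left hG
    linear_combination h5
  have h4 : (F \ E).card = 3 := by exact_mod_cast h3
  have h5 : F.card = 7 := by
    have := Finset.card_sdiff_add_card_eq_card hEF
    omega
  rw [← h5, hF, Nat.card_eq_fintype_card, Fintype.card_subtype]

/-- **S0951** -/
theorem s0951 {G : Type u} [Group G] [Finite G] {M : Ideal AlgInt} (hM : IsPModular 2 M)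
    (S : Sylow 2 G) (e : (S : Subgroup G) ≃* QuaternionGroup 2) (hO : pPrimeCore 2 G = ⊥)
    (hG : (S : Subgroup G) ≠ ⊤) : Nat.card (principalBlock M G) = 7 := by
  haveI : Fact (Nat.Prime 2) := ⟨Nat.prime_two⟩
  haveI := Fintype.ofFinite G
  have hQ := isQ8_of_equiv e
  set u : G := (e.symm (QuaternionGroup.a 2) : G) with hu
  have huniq : ∀ v ∈ S, orderOf v = 2 → v = u := by
    intro v hv hv2
    rcases hQ.sq v hv (mul_self_of_orderOf_two hv2) with h | h
    · exact absurd h (ne_one_of_orderOf_two hv2)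
    · exact h
  have hcen := uniqInvHyp G S u hQ.orderOf_u hQ.mem huniq hO
  have hR : RankOne u := rankOne_of_sylow hQ.orderOf_u hQ.mem huniq
  have hU : UInv u := ⟨hQ.orderOf_u, fun v hv => hR.uniq v hv
    (Subgroup.mem_center_iff.mp hcen v).symm⟩
  have hnc : ∀ N : Subgroup G, N.Normal → ¬ Subgroup.IsComplement' N (S : Subgroup G) := by
    intro N hN hNS
    have hNodd : Odd (Nat.card N) := by
      have h1 : (S : Subgroup G).index = Nat.card N := hNS.index_eq_card
      rw [← h1, ← Nat.not_even_iff_odd, even_iff_two_dvd]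
      exact S.not_dvd_index
    have hNbot : N = ⊥ := by
      have := le_pPrimeCore_two hN hNodd
      rwa [hO, le_bot_iff] at this
    rw [hNbot] at hNS
    exact hG (Subgroup.isComplement'_bot_left.mp hNS)
  haveI := hU.zpowers_normal
  obtain ⟨z, e', hd, hev, hzB⟩ := exists_secData hU hQ (fun x hx y hy hxx hyy => by
    obtain ⟨n, -, hn⟩ := hQ.conj_in_normalizer hnc hx hy hxx hyy
    exact ⟨n, hn⟩) hM
  exact card_principalBlock_q8 hM hQ hd hev hzB

end Main

end Cfsg.Agent.H4
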